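import Mathlib
import Cfsg.Prelude.Def_OddOrder
import Cfsg.Prelude.Def_OddOrderLocal
import Cfsg.Agent.Lib.helper15.Bender7

set_option autoImplicit false
set_option linter.unusedSectionVars false
set_option linter.unusedVariables false

namespace Cfsg.Agent.Lib.helper15.Bender

open Subgroup
open scoped commutatorElement

universe u

section uniq
variable {G : Type u} [Group G] [Finite G]

/-- `Z(O_r(H)) ≤ Z(F(H))` -/
theorem zc_le_cent_fit (H : Subgroup G) (r : ℕ) [Fact r.Prime] :
    zc H r ≤ fit H ⊓ centralizer ((fit H : Subgroup G) : Set G) := by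
  intro z hz
  have hz1 := (Subgroup.mem_inf.mp hz).1
  have hz2 := (Subgroup.mem_inf.mp hz).2
  rw [Subgroup.mem_centralizer_iff] at hz2
  refine Subgroup.mem_inf.mpr ⟨pc_le_fit H r hz1, ?_⟩
  have hle : fit H ≤ Subgroup.centralizer {z} := by
    rw [fit_eq_iSup]
    apply iSup_le
    intro s
    haveI : Fact (s : ℕ).Prime := ⟨s.2⟩
    intro a ha
    rw [Subgroup.mem_centralizer_iff]
    intro x hx
    rw [Set.mem_singleton_iff] at hx
    rw [hx]
    by_cases hsr : (s : ℕ) = r
    · rw [hsr] at ha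
      exact (hz2 a ha).symm
    · exact c4 (fit_le H) (fit_le H) (Ne.symm hsr) hz1 ha
  rw [Subgroup.mem_centralizer_iff]
  intro f hf
  have h3 := hle hf
  rw [Subgroup.mem_centralizer_iff] at h3
  exact (h3 z rfl).symm

/-- if the centres of `O_p(H)` and `O_r(H)` lie in `L` then `O_p(L) ≤ H` -/
theorem pq_step [IsSimpleGroup G] {H L : Subgroup G} (hH : IsCoatom H) {p r : ℕ} (hp : p.Prime)
    (hr : r.Prime) (hne : p ≠ r) (hpH : pc H p ≠ ⊥) (hrH : pc H r ≠ ⊥) (hZp : zc H p ≤ L)
    (hZr : zc H r ≤ L) : pc L p ≤ H := by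
  haveI : Fact p.Prime := ⟨hp⟩
  haveI : Fact r.Prime := ⟨hr⟩
  have hnp := zc_normalizer hH p hpH
  have hnr := zc_normalizer hH r hrH
  have hLn : L ≤ normalizer ((pc L p : Subgroup G) : Set G) := le_normalizer_pc L p
  have hcent : zc H r ≤ centralizer ((pc L p : Subgroup G) : Set G) := by
    intro y hy
    have hyr : y ∈ pc H r := (Subgroup.mem_inf.mp hy).1
    have hyL : y ∈ L := hZr hy
    have h := Cfsg.Agent.Lib.helper8.thompson_pq (p := p) (zc H p) (Subgroup.zpowers y) (pc L p)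
      ((pc_isPGroup H p).to_le inf_le_left)
      (by
        rw [Nat.card_zpowers]
        obtain ⟨k, hk⟩ := pelem_of_mem_pc hyr
        have h1 : orderOf y ∣ r ^ k := orderOf_dvd_of_pow_eq_one hk
        exact Nat.Coprime.coprime_dvd_left h1
          (Nat.Coprime.pow_left k ((Nat.coprime_primes hr hp).mpr hne.symm)))
      (pc_isPGroup L p)
      (by
        apply Subgroup.le_centralizer_iff.mp
        rw [Subgroup.zpowers_le, Subgroup.mem_centralizer_iff]
        intro z hz
        exact c4 (fit_le H) (fit_le H) hne (Subgroup.mem_inf.mp hz).1 hyr)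
      (hZp.trans hLn) (Subgroup.zpowers_le.mpr (hLn hyL))
      (by
        intro c hc
        have hcP := (Subgroup.mem_inf.mp hc).1
        have hcH : c ∈ H := by
          rw [← hnp]; exact Subgroup.centralizer_le_normalizer _ (Subgroup.mem_inf.mp hc).2
        have h1 : c * y * c⁻¹ * y⁻¹ ∈ pc H r := mul_mem (pc_conj H r hcH hyr) (inv_mem hyr)
        have h2 : c * y * c⁻¹ * y⁻¹ ∈ pc L p := by
          have h := pc_conj L p hyL (inv_mem hcP)
          have h' := mul_mem hcP h
          have e : c * (y * c⁻¹ * y⁻¹) = c * y * c⁻¹ * y⁻¹ := by group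
          rwa [e] at h'
        have hdis : Disjoint (pc L p) (pc H r) :=
          IsPGroup.disjoint_of_ne p r hne _ _ (pc_isPGroup L p) (pc_isPGroup H r)
        have h3 : c * y * c⁻¹ * y⁻¹ = 1 := (Subgroup.disjoint_def.mp hdis) h2 h1
        have hcy : c * y = y * c := by
          calc c * y = (c * y * c⁻¹ * y⁻¹) * (y * c) := by group
            _ = y * c := by rw [h3, one_mul]
        have h4 : Subgroup.zpowers y ≤ Subgroup.centralizer ({c} : Set G) := by
          rw [Subgroup.zpowers_le, Subgroup.mem_centralizer_iff]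
          intro x hx
          rw [Set.mem_singleton_iff] at hx
          rw [hx]; exact hcy
        rw [Subgroup.mem_centralizer_iff]
        intro w hw
        have h5 := h4 hw
        rw [Subgroup.mem_centralizer_iff] at h5
        exact (h5 c rfl).symm)
    exact h (Subgroup.mem_zpowers y)
  calc pc L p ≤ centralizer ((zc H r : Subgroup G) : Set G) :=
        Subgroup.le_centralizer_iff.mp hcent
    _ ≤ normalizer ((zc H r : Subgroup G) : Set G) := Subgroup.centralizer_le_normalizer _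
    _ = H := hnr

theorem s1482_main (hG : Cfsg.IsMinSimpleOddOrder G) (H : Subgroup G) (hH : IsCoatom H)
    (hF2 : 2 ≤ (Nat.card (Cfsg.fittingOf H)).primeFactors.card) (M : Subgroup G)
    (hM : M ≤ Cfsg.fittingOf H)
    (hZM : Cfsg.fittingOf H ⊓ Subgroup.centralizer (Cfsg.fittingOf H : Set G) ≤ M)
    (hinv : ∀ Y ∈ Cfsg.invSubgroups ⊤ M (Cfsg.primesNotDvd (Nat.card (Cfsg.fittingOf H))),
      Y = ⊥) :
    ∀ L : Subgroup G, IsCoatom L → M ≤ L → L = H := by
  intro L hL hML
  haveI : IsSimpleGroup G := hG.2.1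
  by_contra hne
  have hsolv : ∀ X : Subgroup G, IsCoatom X → Cfsg.layer ↥X = ⊥ := by
    intro X hX
    haveI hs : Group.IsSolvable ↥X := hG.2.2.2 X hX.1
    unfold Cfsg.layer
    rw [eq_bot_iff]
    apply sSup_le
    intro K hK
    exfalso
    exact Cfsg.Agent.Lib.helper7.comp_not_le_solvable hK
      (inferInstance : Group.IsSolvable ↥(⊤ : Subgroup ↥X)) le_top
  have hlH := hsolv H hH
  have hlL := hsolv L hL
  have hZM' : fit H ⊓ centralizer ((fit H : Subgroup G) : Set G) ≤ M := hZM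
  have hcard : Nat.card (Cfsg.fittingOf H) = Nat.card (Cfsg.fittingSubgroup ↥H) :=
    Subgroup.card_map_of_injective H.subtype_injective
  have h1 : 1 < (Nat.card (Cfsg.fittingOf H)).primeFactors.card := hF2
  obtain ⟨p₁, hp₁, p₂, hp₂, hp12⟩ := Finset.one_lt_card.mp h1
  have hp₁' := Nat.mem_primeFactors.mp hp₁
  have hp₂' := Nat.mem_primeFactors.mp hp₂
  have hpc₁ : pc H p₁ ≠ ⊥ := pc_ne_bot_of_dvd H hp₁'.1 (by rw [← hcard]; exact hp₁'.2.1)
  have hpc₂ : pc H p₂ ≠ ⊥ := pc_ne_bot_of_dvd H hp₂'.1 (by rw [← hcard]; exact hp₂'.2.1)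
  have hZL : ∀ r : ℕ, r.Prime → zc H r ≤ L := by
    intro r hr
    haveI : Fact r.Prime := ⟨hr⟩
    exact ((zc_le_cent_fit H r).trans hZM').trans hML
  have hσ : ∀ q : ℕ, q.Prime → pc L q ≠ ⊥ → pc H q ≠ ⊥ := by
    intro q hq hqL
    haveI : Fact q.Prime := ⟨hq⟩
    by_contra hqH
    apply hqL
    apply hinv
    refine ⟨le_top, ?_, hML.trans (le_normalizer_pc L q)⟩
    intro s hs hsd
    obtain ⟨n, hn⟩ := (pc_isPGroup L q).exists_card_eq
    rw [hn] at hsd
    have hsq : s = q := (Nat.prime_dvd_prime_iff_eq hs hq).mp (hs.dvd_of_dvd_pow hsd)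
    rw [hsq]
    refine ⟨hq, ?_⟩
    intro hd
    exact (pc_ne_bot_of_dvd H hq (by rw [← hcard]; exact hd)) hqH
  have hLH : ∀ p : ℕ, p.Prime → pc L p ≤ H := by
    intro p hp
    by_cases hb : pc L p = ⊥
    · rw [hb]; exact bot_le
    · have hpH := hσ p hp hb
      by_cases h : p₁ = p
      · exact pq_step hH hp hp₂'.1 (by rw [← h]; exact hp12) hpH hpc₂ (hZL p hp)
          (hZL p₂ hp₂'.1)
      · exact pq_step hH hp hp₁'.1 (Ne.symm h) hpH hpc₁ (hZL p hp) (hZL p₁ hp₁'.1)
  have hfitLH : fit L ≤ H := by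
    rw [fit_eq_iSup]; apply iSup_le; intro r; exact hLH r r.2
  have hπ : ∀ p : ℕ, p.Prime → pc H p ≠ ⊥ → pc L p ≠ ⊥ := by
    intro p hp hpH hpL
    haveI : Fact p.Prime := ⟨hp⟩
    have hnp := zc_normalizer hH p hpH
    apply zc_ne_bot H p hpH
    rw [eq_bot_iff]
    intro z hz
    have hzp : z ∈ pc H p := (Subgroup.mem_inf.mp hz).1
    have hzL : z ∈ L := hZL p hp hz
    have hc : ∀ f ∈ fit L, z * f = f * z := by
      have hle : fit L ≤ Subgroup.centralizer {z} := by
        rw [fit_eq_iSup]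
        apply iSup_le
        intro s
        haveI : Fact (s : ℕ).Prime := ⟨s.2⟩
        intro a ha
        rw [Subgroup.mem_centralizer_iff]
        intro x hx
        rw [Set.mem_singleton_iff] at hx
        rw [hx]
        by_cases hsp : (s : ℕ) = p
        · rw [hsp, hpL, Subgroup.mem_bot] at ha
          rw [ha]; simp
        · have haH : a ∈ H := hLH s s.2 ha
          have h1 : z * a * z⁻¹ * a⁻¹ ∈ pc L s :=
            mul_mem (pc_conj L s hzL ha) (inv_mem ha)
          have h2 : z * a * z⁻¹ * a⁻¹ ∈ zc H p := by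
            have haN : a ∈ normalizer ((zc H p : Subgroup G) : Set G) := by rw [hnp]; exact haH
            have h := Cfsg.Agent.Lib.helper8.conj_mem_of_mem_normalizer haN (inv_mem hz)
            have h' := mul_mem hz h
            have e : z * (a * z⁻¹ * a⁻¹) = z * a * z⁻¹ * a⁻¹ := by group
            rwa [e] at h'
          have hdis : Disjoint (zc H p) (pc L s) :=
            IsPGroup.disjoint_of_ne p s (Ne.symm hsp) _ _
              ((pc_isPGroup H p).to_le inf_le_left) (pc_isPGroup L s)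
          have h3 : z * a * z⁻¹ * a⁻¹ = 1 := (Subgroup.disjoint_def.mp hdis) h2 h1
          calc z * a = (z * a * z⁻¹ * a⁻¹) * (a * z) := by group
            _ = a * z := by rw [h3, one_mul]
      intro f hf
      have h3 := hle hf
      rw [Subgroup.mem_centralizer_iff] at h3
      exact h3 z rfl
    have hzF : z ∈ fit L := cent_fit_le hlL hzL hc
    have hzpc : z ∈ pc L p := pelem_fit_mem_pc L p hzF (pelem_of_mem_pc hzp)
    rw [hpL] at hzpc
    exact hzpc
  have hZH : ∀ r : ℕ, r.Prime → zc L r ≤ H := by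
    intro r hr
    haveI : Fact r.Prime := ⟨hr⟩
    exact (inf_le_left.trans (pc_le_fit L r)).trans hfitLH
  have hHL : ∀ p : ℕ, p.Prime → pc H p ≤ L := by
    intro p hp
    by_cases hb : pc H p = ⊥
    · rw [hb]; exact bot_le
    · have hpL := hπ p hp hb
      by_cases h : p₁ = p
      · exact pq_step hL hp hp₂'.1 (by rw [← h]; exact hp12) hpL (hπ p₂ hp₂'.1 hpc₂)
          (hZH p hp) (hZH p₂ hp₂'.1)
      · exact pq_step hL hp hp₁'.1 (Ne.symm h) hpL (hπ p₁ hp₁'.1 hpc₁) (hZH p hp)
          (hZH p₁ hp₁'.1)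
  have hfitHL : fit H ≤ L := by
    rw [fit_eq_iSup]; apply iSup_le; intro r; exact hHL r r.2
  have h1' : fs H ≤ L := by
    rw [fs_eq]
    refine sup_le ?_ hfitHL
    unfold lay; rw [hlH, Subgroup.map_bot]; exact bot_le
  have h2' : fs L ≤ H := by
    rw [fs_eq]
    refine sup_le ?_ hfitLH
    unfold lay; rw [hlL, Subgroup.map_bot]; exact bot_le
  obtain ⟨p, hp, hpgH, -⟩ := bender_main hH hL (fun e => hne e.symm) h1' h2'
  haveI : Fact p.Prime := ⟨hp⟩
  have hpgF : IsPGroup p ↥(Cfsg.fittingSubgroup ↥H) :=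
    hpgH.to_le (Cfsg.Agent.Lib.helper7.fitting_le_genFitting ↥H)
  obtain ⟨n, hn⟩ := hpgF.exists_card_eq
  rw [hcard, hn] at hF2
  by_cases hn0 : n = 0
  · rw [hn0, pow_zero] at hF2; simp at hF2
  · rw [Nat.primeFactors_prime_pow hn0 hp] at hF2; simp at hF2

end uniq

end Cfsg.Agent.Lib.helper15.Bender
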