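import Mathlib
import Cfsg.Agent.Lib.helper3.GL2Odd

set_option autoImplicit false
set_option linter.style.haveILetI false

namespace Cfsg.Agent.Lib.helper15.GL2D

universe u

open Matrix
open scoped commutatorElement

theorem sq_zero_of_fix {F : Type*} [Field F] (x : Matrix (Fin 2) (Fin 2) F) (hdet : x.det = 1)
    (v : Fin 2 → F) (hv : v ≠ 0) (hx : x.mulVec v = v) : (x - 1) * (x - 1) = 0 := by
  have v0 := congrFun hx 0
  have v1 := congrFun hx 1
  simp only [Matrix.mulVec, dotProduct, Fin.sum_univ_two] at v0 v1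
  rw [Matrix.det_fin_two] at hdet
  have htr : x 0 0 + x 1 1 = 2 := by
    by_contra hne
    apply hv
    have h0 : ((x 0 0 - 1) * (x 1 1 - 1) - x 0 1 * x 1 0) * v 0 = 0 := by
      linear_combination (x 1 1 - 1) * v0 - x 0 1 * v1
    have h1 : ((x 0 0 - 1) * (x 1 1 - 1) - x 0 1 * x 1 0) * v 1 = 0 := by
      linear_combination (x 0 0 - 1) * v1 - x 1 0 * v0
    have hd : (x 0 0 - 1) * (x 1 1 - 1) - x 0 1 * x 1 0 ≠ 0 := by
      intro h
      apply hne
      linear_combination hdet - h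
    ext i
    fin_cases i
    · exact (mul_eq_zero.mp h0).resolve_left hd
    · exact (mul_eq_zero.mp h1).resolve_left hd
  ext i j
  fin_cases i <;> fin_cases j <;>
    simp only [Matrix.mul_apply, Fin.sum_univ_two, Matrix.sub_apply, Fin.zero_eta, Fin.mk_one,
      Fin.isValue, Matrix.one_apply_eq, Matrix.one_apply_ne, ne_eq, not_false_eq_true,
      zero_ne_one, one_ne_zero, Matrix.zero_apply, sub_zero]
  · linear_combination x 0 0 * htr - hdet
  · linear_combination x 0 1 * htr
  · linear_combination x 1 0 * htr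
  · linear_combination x 1 1 * htr - hdet

theorem pow_char_of_sq_zero {p : ℕ} [Fact p.Prime] {F : Type*} [Field F] [CharP F p]
    (x : Matrix (Fin 2) (Fin 2) F) (h : (x - 1) * (x - 1) = 0) : x ^ p = 1 := by
  obtain ⟨N, rfl⟩ : ∃ N, x = 1 + N := ⟨x - 1, by abel⟩
  rw [add_sub_cancel_left] at h
  have key : ∀ k : ℕ, (1 + N) ^ k = 1 + k • N := by
    intro k
    induction k with
    | zero => simp
    | succ k ih =>
      rw [pow_succ, ih]
      simp only [mul_add, add_mul, mul_one, one_mul, smul_mul_assoc, h, smul_zero, succ_nsmul]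
      abel
  rw [key, ← Nat.cast_smul_eq_nsmul F, CharP.cast_eq_zero, zero_smul, add_zero]

theorem eig_mul {F : Type*} [Field F] (a b : Matrix (Fin 2) (Fin 2) F) (v : Fin 2 → F) (c d : F)
    (ha : a.mulVec v = c • v) (hb : b.mulVec v = d • v) : (a * b).mulVec v = (c * d) • v := by
  rw [← Matrix.mulVec_mulVec, hb, Matrix.mulVec_smul, ha, smul_smul, mul_comm]

theorem eig_inv {F : Type*} [Field F] (a : GL (Fin 2) F) (v : Fin 2 → F) (hv : v ≠ 0) (c : F)
    (ha : (a : Matrix (Fin 2) (Fin 2) F).mulVec v = c • v) :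
    ((a⁻¹ : GL (Fin 2) F) : Matrix (Fin 2) (Fin 2) F).mulVec v = c⁻¹ • v := by
  have h1 : ((a⁻¹ : GL (Fin 2) F) : Matrix (Fin 2) (Fin 2) F).mulVec
      ((a : Matrix (Fin 2) (Fin 2) F).mulVec v) = v := by
    rw [Matrix.mulVec_mulVec, ← Units.val_mul, inv_mul_cancel, Units.val_one, Matrix.one_mulVec]
  rw [ha, Matrix.mulVec_smul] at h1
  have hc : c ≠ 0 := by
    rintro rfl
    rw [zero_smul] at h1
    exact hv h1.symm
  calc ((a⁻¹ : GL (Fin 2) F) : Matrix (Fin 2) (Fin 2) F).mulVec v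
      = c⁻¹ • (c • ((a⁻¹ : GL (Fin 2) F) : Matrix (Fin 2) (Fin 2) F).mulVec v) := by
        rw [smul_smul, inv_mul_cancel₀ hc, one_smul]
    _ = c⁻¹ • v := by rw [h1]

theorem det_comm_eq_one {F : Type*} [Field F] (a b : GL (Fin 2) F) :
    ((⁅a, b⁆ : GL (Fin 2) F) : Matrix (Fin 2) (Fin 2) F).det = 1 := by
  have h : Matrix.GeneralLinearGroup.det ⁅a, b⁆ = 1 := by
    rw [map_commutatorElement]
    exact commutatorElement_eq_one_iff_commute.mpr (Commute.all _ _)
  have h2 := congrArg Units.val h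
  rw [Matrix.GeneralLinearGroup.val_det_apply] at h2
  simpa using h2

/-- If the image of `ρ` fixes a line, the image of the derived subgroup is unipotent. -/
theorem derived_of_fix_line {p : ℕ} [Fact p.Prime] {F : Type*} [Field F] [CharP F p]
    {X : Type*} [Group X] (ρ : X →* GL (Fin 2) F) (v : Fin 2 → F) (hv : v ≠ 0)
    (hX : ∀ x : X, ∃ c : F, ((ρ x : GL (Fin 2) F) : Matrix (Fin 2) (Fin 2) F).mulVec v = c • v) :
    ∀ x ∈ commutator X, ρ x ^ p = 1 := by
  intro x hx
  let T : Subgroup X :=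
    { carrier := {x | ((ρ x : GL (Fin 2) F) : Matrix (Fin 2) (Fin 2) F).mulVec v = v ∧
        ((ρ x : GL (Fin 2) F) : Matrix (Fin 2) (Fin 2) F).det = 1}
      mul_mem' := by
        rintro a b ⟨ha1, ha2⟩ ⟨hb1, hb2⟩
        refine ⟨?_, ?_⟩
        · rw [map_mul, Units.val_mul, ← Matrix.mulVec_mulVec, hb1, ha1]
        · rw [map_mul, Units.val_mul, Matrix.det_mul, ha2, hb2, one_mul]
      one_mem' := by
        refine ⟨?_, ?_⟩
        · rw [map_one, Units.val_one, Matrix.one_mulVec]
        · rw [map_one, Units.val_one, Matrix.det_one]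
      inv_mem' := by
        rintro a ⟨ha1, ha2⟩
        refine ⟨?_, ?_⟩
        · have := eig_inv (ρ a) v hv 1 (by rw [ha1, one_smul])
          rw [map_inv, this, inv_one, one_smul]
        · have h3 : ((ρ a⁻¹ : GL (Fin 2) F) : Matrix (Fin 2) (Fin 2) F).det *
              ((ρ a : GL (Fin 2) F) : Matrix (Fin 2) (Fin 2) F).det = 1 := by
            rw [← Matrix.det_mul, ← Units.val_mul, ← map_mul, inv_mul_cancel, map_one,
              Units.val_one, Matrix.det_one]
          rw [ha2, mul_one] at h3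
          exact h3 }
  have hle : commutator X ≤ T := by
    rw [commutator_def, Subgroup.commutator_le]
    intro a _ b _
    obtain ⟨c, hc⟩ := hX a
    obtain ⟨d, hd⟩ := hX b
    have hc0 : c ≠ 0 := by
      rintro rfl
      have h1 : (((ρ a)⁻¹ * ρ a : GL (Fin 2) F) : Matrix (Fin 2) (Fin 2) F).mulVec v = v := by
        rw [inv_mul_cancel, Units.val_one, Matrix.one_mulVec]
      rw [Units.val_mul, ← Matrix.mulVec_mulVec, hc, zero_smul, Matrix.mulVec_zero] at h1
      exact hv h1.symm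
    have hd0 : d ≠ 0 := by
      rintro rfl
      have h1 : (((ρ b)⁻¹ * ρ b : GL (Fin 2) F) : Matrix (Fin 2) (Fin 2) F).mulVec v = v := by
        rw [inv_mul_cancel, Units.val_one, Matrix.one_mulVec]
      rw [Units.val_mul, ← Matrix.mulVec_mulVec, hd, zero_smul, Matrix.mulVec_zero] at h1
      exact hv h1.symm
    refine ⟨?_, ?_⟩
    · have h := eig_mul _ _ v _ _ (eig_mul _ _ v _ _ (eig_mul _ _ v _ _ hc hd)
        (eig_inv (ρ a) v hv c hc)) (eig_inv (ρ b) v hv d hd)
      rw [map_commutatorElement, commutatorElement_def, Units.val_mul, Units.val_mul,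
        Units.val_mul, h]
      have h5 : c * d * c⁻¹ * d⁻¹ = 1 := by field_simp
      rw [h5, one_smul]
    · rw [map_commutatorElement]
      exact det_comm_eq_one _ _
  have hfix := hle hx
  obtain ⟨h1, h2⟩ := hfix
  apply Units.ext
  rw [Units.val_pow_eq_pow_val, Units.val_one]
  exact pow_char_of_sq_zero _ (sq_zero_of_fix _ h2 v hv h1)

theorem comm_rep {F : Type*} [Field F] (m n : Matrix (Fin 2) (Fin 2) F)
    (hns : ¬ (m 0 1 = 0 ∧ m 1 0 = 0 ∧ m 0 0 = m 1 1)) (hc : n * m = m * n) :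
    ∃ a b : F, n = a • (1 : Matrix (Fin 2) (Fin 2) F) + b • m := by
  have c00 := congrFun (congrFun hc 0) 0
  have c01 := congrFun (congrFun hc 0) 1
  have c10 := congrFun (congrFun hc 1) 0
  simp only [Matrix.mul_apply, Fin.sum_univ_two] at c00 c01 c10
  obtain ⟨b, hb1, hb2, hb3⟩ : ∃ b : F, n 0 1 = b * m 0 1 ∧ n 1 0 = b * m 1 0 ∧
      n 0 0 - n 1 1 = b * (m 0 0 - m 1 1) := by
    by_cases h01 : m 0 1 = 0
    · by_cases h10 : m 1 0 = 0
      · have hd : m 0 0 - m 1 1 ≠ 0 := fun h => hns ⟨h01, h10, sub_eq_zero.mp h⟩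
        refine ⟨(n 0 0 - n 1 1) / (m 0 0 - m 1 1), ?_, ?_, ?_⟩
        · rw [h01, mul_zero]
          have h : n 0 1 * (m 0 0 - m 1 1) = 0 := by
            rw [h01] at c01
            linear_combination -c01
          exact (mul_eq_zero.mp h).resolve_right hd
        · rw [h10, mul_zero]
          have h : n 1 0 * (m 0 0 - m 1 1) = 0 := by
            rw [h10] at c10
            linear_combination c10
          exact (mul_eq_zero.mp h).resolve_right hd
        · field_simp
      · refine ⟨n 1 0 / m 1 0, ?_, ?_, ?_⟩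
        · rw [h01, mul_zero]
          have h : n 0 1 * m 1 0 = 0 := by
            rw [h01] at c00
            linear_combination c00
          exact (mul_eq_zero.mp h).resolve_right h10
        · field_simp
        · field_simp
          linear_combination -c10
    · refine ⟨n 0 1 / m 0 1, ?_, ?_, ?_⟩
      · field_simp
      · field_simp
        linear_combination -c00
      · field_simp
        linear_combination c01
  refine ⟨n 0 0 - b * m 0 0, b, ?_⟩
  ext i j
  fin_cases i <;> fin_cases j <;>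
    simp only [Matrix.add_apply, Matrix.smul_apply, Fin.zero_eta, Fin.mk_one,
      Fin.isValue, Matrix.one_apply_eq, Matrix.one_apply_ne, ne_eq, not_false_eq_true,
      zero_ne_one, one_ne_zero, smul_eq_mul, mul_one, mul_zero, zero_add]
  · ring
  · exact hb1
  · exact hb2
  · linear_combination -hb3

theorem scalar_det_one_odd {F : Type*} [Field F] (h2 : (2 : F) ≠ 0) (g : GL (Fin 2) F)
    (hs : (g : Matrix (Fin 2) (Fin 2) F) 0 1 = 0 ∧ (g : Matrix (Fin 2) (Fin 2) F) 1 0 = 0 ∧
      (g : Matrix (Fin 2) (Fin 2) F) 0 0 = (g : Matrix (Fin 2) (Fin 2) F) 1 1)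
    (hdet : (g : Matrix (Fin 2) (Fin 2) F).det = 1) (n : ℕ) (hn : Odd n) (hgn : g ^ n = 1) :
    g = 1 := by
  obtain ⟨h01, h10, h00⟩ := hs
  obtain ⟨z, hz⟩ : ∃ z : F, z = (g : Matrix (Fin 2) (Fin 2) F) 0 0 := ⟨_, rfl⟩
  have hg : (g : Matrix (Fin 2) (Fin 2) F) = z • (1 : Matrix (Fin 2) (Fin 2) F) := by
    ext i j
    fin_cases i <;> fin_cases j <;>
      simp only [Matrix.smul_apply, Fin.zero_eta, Fin.mk_one,
        Fin.isValue, Matrix.one_apply_eq, Matrix.one_apply_ne, ne_eq, not_false_eq_true,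
        zero_ne_one, one_ne_zero, smul_eq_mul, mul_one, mul_zero]
    · exact hz.symm
    · exact h01
    · exact h10
    · rw [hz, h00]
  rw [Matrix.det_fin_two, h01, zero_mul, sub_zero, ← h00, ← hz] at hdet
  have hzn : z ^ n = 1 := by
    have h := congrArg Units.val hgn
    rw [Units.val_pow_eq_pow_val, hg, smul_pow, one_pow, Units.val_one] at h
    have h' := congrFun (congrFun h 0) 0
    simpa using h'
  have hz1 : z = 1 := by
    have h3 : (z - 1) * (z + 1) = 0 := by linear_combination hdet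
    rcases mul_eq_zero.mp h3 with h4 | h4
    · exact sub_eq_zero.mp h4
    · exfalso
      have h5 : z = -1 := by linear_combination h4
      rw [h5, hn.neg_one_pow] at hzn
      apply h2
      linear_combination -hzn
  apply Units.ext
  rw [hg, hz1, one_smul, Units.val_one]

/-- Key dichotomy. -/
theorem conj_comm_dichotomy {F : Type*} [Field F] (h2 : (2 : F) ≠ 0) (g : GL (Fin 2) F) (n : ℕ)
    (hn : Odd n) (hgn : g ^ n = 1) (m : Matrix (Fin 2) (Fin 2) F)
    (hns : ¬ (m 0 1 = 0 ∧ m 1 0 = 0 ∧ m 0 0 = m 1 1))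
    (hc : ((g : Matrix (Fin 2) (Fin 2) F) * m * ((g⁻¹ : GL (Fin 2) F) : Matrix (Fin 2) (Fin 2) F)) * m
      = m * ((g : Matrix (Fin 2) (Fin 2) F) * m * ((g⁻¹ : GL (Fin 2) F) : Matrix (Fin 2) (Fin 2) F))) :
    (g : Matrix (Fin 2) (Fin 2) F) * m = m * (g : Matrix (Fin 2) (Fin 2) F) ∨
      ∃ c : F, (m - c • (1 : Matrix (Fin 2) (Fin 2) F)) * (m - c • (1 : Matrix (Fin 2) (Fin 2) F)) = 0 := by
  obtain ⟨ν, hν⟩ : ∃ ν : Matrix (Fin 2) (Fin 2) F, ν = (g : Matrix (Fin 2) (Fin 2) F) * m *
      ((g⁻¹ : GL (Fin 2) F) : Matrix (Fin 2) (Fin 2) F) := ⟨_, rfl⟩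
  rw [← hν] at hc
  have hgg : ((g⁻¹ : GL (Fin 2) F) : Matrix (Fin 2) (Fin 2) F) * (g : Matrix (Fin 2) (Fin 2) F) = 1 := by
    rw [← Units.val_mul, inv_mul_cancel, Units.val_one]
  have hνg : ν * (g : Matrix (Fin 2) (Fin 2) F) = (g : Matrix (Fin 2) (Fin 2) F) * m := by
    rw [hν, mul_assoc, hgg, mul_one]
  have htr : Matrix.trace ν = Matrix.trace m := by
    rw [hν]; exact Matrix.trace_units_conj g m
  have hdet : Matrix.det ν = Matrix.det m := by
    rw [hν]; exact Matrix.det_units_conj g m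
  obtain ⟨a, b, hab⟩ := comm_rep m ν hns hc
  have e00 : ν 0 0 = a + b * m 0 0 := by rw [hab]; simp
  have e01 : ν 0 1 = b * m 0 1 := by rw [hab]; simp
  have e10 : ν 1 0 = b * m 1 0 := by rw [hab]; simp
  have e11 : ν 1 1 = a + b * m 1 1 := by rw [hab]; simp
  rw [Matrix.trace_fin_two, Matrix.trace_fin_two, e00, e11] at htr
  rw [Matrix.det_fin_two, Matrix.det_fin_two, e00, e01, e10, e11] at hdet
  by_cases hb1 : b = 1
  · left
    have ha : a = 0 := by
      have : 2 * a = 0 := by rw [hb1] at htr; linear_combination htr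
      exact (mul_eq_zero.mp this).resolve_left h2
    have hνm : ν = m := by rw [hab, ha, hb1, zero_smul, one_smul, zero_add]
    rw [← hνg, hνm]
  · by_cases hb2 : b = -1
    · left
      have ha : a = m 0 0 + m 1 1 := by
        rw [hb2] at htr
        have : 2 * (a - (m 0 0 + m 1 1)) = 0 := by linear_combination htr
        exact sub_eq_zero.mp ((mul_eq_zero.mp this).resolve_left h2)
      have h3 : (g : Matrix (Fin 2) (Fin 2) F) * ν = m * (g : Matrix (Fin 2) (Fin 2) F) := by
        have h4 : ν = a • (1 : Matrix (Fin 2) (Fin 2) F) - m := by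
          rw [hab, hb2, neg_one_smul, sub_eq_add_neg]
        have h5 : m = a • (1 : Matrix (Fin 2) (Fin 2) F) - ν := by rw [h4]; abel
        have h6 : (g : Matrix (Fin 2) (Fin 2) F) * m = (a • (1 : Matrix (Fin 2) (Fin 2) F) - m) *
            (g : Matrix (Fin 2) (Fin 2) F) := by rw [← h4, hνg]
        calc (g : Matrix (Fin 2) (Fin 2) F) * ν
            = (g : Matrix (Fin 2) (Fin 2) F) * (a • (1 : Matrix (Fin 2) (Fin 2) F) - m) := by rw [h4]
          _ = a • (g : Matrix (Fin 2) (Fin 2) F) - (g : Matrix (Fin 2) (Fin 2) F) * m := by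
              rw [mul_sub, mul_smul_comm, mul_one]
          _ = a • (g : Matrix (Fin 2) (Fin 2) F) - (a • (1 : Matrix (Fin 2) (Fin 2) F) - m) *
              (g : Matrix (Fin 2) (Fin 2) F) := by rw [h6]
          _ = m * (g : Matrix (Fin 2) (Fin 2) F) := by
              rw [sub_mul, smul_mul_assoc, one_mul]; abel
      have h7 : Commute ((g * g : GL (Fin 2) F) : Matrix (Fin 2) (Fin 2) F) m := by
        show ((g * g : GL (Fin 2) F) : Matrix (Fin 2) (Fin 2) F) * m =
          m * ((g * g : GL (Fin 2) F) : Matrix (Fin 2) (Fin 2) F)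
        rw [Units.val_mul, mul_assoc, ← hνg, ← mul_assoc, h3, mul_assoc]
      obtain ⟨k, hk⟩ := hn
      have h8 : g = (g * g) ^ (k + 1) := by
        have : (g * g) ^ (k + 1) = g ^ n * g := by
          rw [hk, ← pow_two, ← pow_mul, ← pow_succ]
          congr 1
        rw [this, hgn, one_mul]
      have h9 := h7.pow_left (k + 1)
      rw [← Units.val_pow_eq_pow_val, ← h8] at h9
      exact h9
    · right
      have hdisc : (m 0 0 + m 1 1) ^ 2 = 4 * (m 0 0 * m 1 1 - m 0 1 * m 1 0) := by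
        have hb1' : b - 1 ≠ 0 := sub_ne_zero.mpr hb1
        have hb2' : b + 1 ≠ 0 := fun h => hb2 (by linear_combination h)
        have h3 : (b - 1) * (b + 1) * ((m 0 0 + m 1 1) ^ 2 - 4 * (m 0 0 * m 1 1 - m 0 1 * m 1 0)) = 0 := by
          have h4 : 2 * a = (m 0 0 + m 1 1) * (1 - b) := by linear_combination htr
          linear_combination (-4 : F) * hdet + (2 * a + (m 0 0 + m 1 1) * (1 - b) + 2 * b * (m 0 0 + m 1 1)) * h4
        exact sub_eq_zero.mp ((mul_eq_zero.mp h3).resolve_left (mul_ne_zero hb1' hb2'))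
      refine ⟨(m 0 0 + m 1 1) / 2, ?_⟩
      ext i j
      fin_cases i <;> fin_cases j <;>
        simp only [Matrix.mul_apply, Fin.sum_univ_two, Matrix.sub_apply, Matrix.smul_apply,
          Fin.zero_eta, Fin.mk_one, Fin.isValue, Matrix.one_apply_eq, Matrix.one_apply_ne, ne_eq,
          not_false_eq_true, zero_ne_one, one_ne_zero, Matrix.zero_apply, sub_zero, smul_eq_mul,
          mul_one, mul_zero]
      · field_simp
        linear_combination hdisc
      · field_simp
        ring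
      · field_simp
        ring
      · field_simp
        linear_combination hdisc

/-- The natural action on column vectors. -/
@[reducible] def glAct (p : ℕ) : MulAction (GL (Fin 2) (ZMod p)) (Fin 2 → ZMod p) where
  smul g v := (g : Matrix (Fin 2) (Fin 2) (ZMod p)).mulVec v
  one_smul v := Matrix.one_mulVec v
  mul_smul g h v := by
    show ((g * h : GL (Fin 2) (ZMod p)) : Matrix (Fin 2) (Fin 2) (ZMod p)).mulVec v = (g : Matrix (Fin 2) (Fin 2) (ZMod p)).mulVec ((h : Matrix (Fin 2) (Fin 2) (ZMod p)).mulVec v)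
    rw [Units.val_mul, Matrix.mulVec_mulVec]

/-- A finite solvable group of odd order mapping to `GL₂(p)`, `p` odd: the image of the derived
subgroup is unipotent. -/
theorem core {p : ℕ} [Fact p.Prime] (hp : p ≠ 2) :
    ∀ (n : ℕ) (X : Type u) [Group X] [Finite X], Nat.card X = n → Odd (Nat.card X) →
      Group.IsSolvable X → ∀ ρ : X →* GL (Fin 2) (ZMod p), ∀ x ∈ commutator X, ρ x ^ p = 1 := by
  have h2 : (2 : ZMod p) ≠ 0 := by
    intro h
    have h3 : p ∣ 2 := (ZMod.natCast_eq_zero_iff 2 p).mp (by exact_mod_cast h)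
    exact hp ((Nat.prime_dvd_prime_iff_eq Fact.out Nat.prime_two).mp h3)
  intro n
  induction n using Nat.strong_induction_on with
  | _ n ih =>
  intro X _ _ hn hodd hsol ρ x hx
  haveI := hsol
  by_cases hnt : Nontrivial X
  swap
  · rw [not_nontrivial_iff_subsingleton] at hnt
    rw [Subsingleton.elim x 1, map_one, one_pow]
  obtain ⟨M, hM⟩ : ∃ M : Subgroup X, M = commutator X := ⟨_, rfl⟩
  haveI hMn : M.Normal := by rw [hM]; infer_instance
  have hMlt : Nat.card M < n := by
    rw [← hn]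
    by_contra hge
    have h3 : M = ⊤ := Subgroup.eq_top_of_le_card M (not_lt.mp hge)
    exact (Group.IsSolvable.commutator_lt_top_of_nontrivial X).ne (hM ▸ h3)
  have hoddM : Odd (Nat.card M) := hodd.of_dvd_nat (Subgroup.card_subgroup_dvd_card M)
  have ihM := ih (Nat.card M) hMlt M rfl hoddM inferInstance (ρ.comp M.subtype)
  obtain ⟨N, hN⟩ : ∃ N : Subgroup X, N = ⁅M, M⁆ := ⟨_, rfl⟩
  haveI hNn : N.Normal := by rw [hN]; infer_instance
  have hNp : ∀ z ∈ N, ρ z ^ p = 1 := by
    intro z hz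
    rw [hN, ← Subgroup.map_subtype_commutator] at hz
    obtain ⟨y, hy, rfl⟩ := hz
    exact ihM y hy
  have hcard : ∀ g : X, ρ g ^ Nat.card X = 1 := by
    intro g
    rw [← map_pow, pow_card_eq_one', map_one]
  have hline : ∀ v : Fin 2 → ZMod p, v ≠ 0 →
      (∀ g : X, ∃ c : ZMod p, ((ρ g : GL (Fin 2) (ZMod p)) : Matrix (Fin 2) (Fin 2) (ZMod p)).mulVec v = c • v) → ρ x ^ p = 1 :=
    fun v hv h => derived_of_fix_line ρ v hv h x hx
  have hab : (∀ a b : X, ((ρ a : GL (Fin 2) (ZMod p)) : Matrix (Fin 2) (Fin 2) (ZMod p)) * ((ρ b : GL (Fin 2) (ZMod p)) : Matrix (Fin 2) (Fin 2) (ZMod p)) = ((ρ b : GL (Fin 2) (ZMod p)) : Matrix (Fin 2) (Fin 2) (ZMod p)) * ((ρ a : GL (Fin 2) (ZMod p)) : Matrix (Fin 2) (Fin 2) (ZMod p))) →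
      ρ x ^ p = 1 := by
    intro h
    have hle : commutator X ≤ ρ.ker := by
      rw [commutator_def, Subgroup.commutator_le]
      intro a _ b _
      rw [MonoidHom.mem_ker, map_commutatorElement, commutatorElement_eq_one_iff_mul_comm]
      apply Units.ext
      rw [Units.val_mul, Units.val_mul]
      exact h a b
    rw [MonoidHom.mem_ker.mp (hle hx), one_pow]
  by_cases hB : ∀ z ∈ N, ρ z = 1
  · have hMab : ∀ a ∈ M, ∀ b ∈ M, ((ρ a : GL (Fin 2) (ZMod p)) : Matrix (Fin 2) (Fin 2) (ZMod p)) * ((ρ b : GL (Fin 2) (ZMod p)) : Matrix (Fin 2) (Fin 2) (ZMod p)) =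
        ((ρ b : GL (Fin 2) (ZMod p)) : Matrix (Fin 2) (Fin 2) (ZMod p)) * ((ρ a : GL (Fin 2) (ZMod p)) : Matrix (Fin 2) (Fin 2) (ZMod p)) := by
      intro a ha b hb
      have h1 : ρ ⁅a, b⁆ = 1 := hB _ (by rw [hN]; exact Subgroup.commutator_mem_commutator ha hb)
      rw [map_commutatorElement, commutatorElement_eq_one_iff_mul_comm] at h1
      have h3 := congrArg Units.val h1
      rwa [Units.val_mul, Units.val_mul] at h3
    by_cases hsc : ∀ m ∈ M, (((ρ m : GL (Fin 2) (ZMod p)) : Matrix (Fin 2) (Fin 2) (ZMod p)) 0 1 = 0 ∧ ((ρ m : GL (Fin 2) (ZMod p)) : Matrix (Fin 2) (Fin 2) (ZMod p)) 1 0 = 0 ∧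
        ((ρ m : GL (Fin 2) (ZMod p)) : Matrix (Fin 2) (Fin 2) (ZMod p)) 0 0 = ((ρ m : GL (Fin 2) (ZMod p)) : Matrix (Fin 2) (Fin 2) (ZMod p)) 1 1)
    · have hle : commutator X ≤ ρ.ker := by
        rw [commutator_def, Subgroup.commutator_le]
        intro a _ b _
        rw [MonoidHom.mem_ker]
        have hmem : ⁅a, b⁆ ∈ M := by
          rw [hM, commutator_def]
          exact Subgroup.commutator_mem_commutator (Subgroup.mem_top a) (Subgroup.mem_top b)
        refine scalar_det_one_odd h2 _ (hsc _ hmem) ?_ (Nat.card X) hodd (hcard _)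
        rw [map_commutatorElement]
        exact det_comm_eq_one _ _
      rw [MonoidHom.mem_ker.mp (hle hx), one_pow]
    · obtain ⟨m₀, hm₀M, hns⟩ : ∃ m₀ ∈ M, ¬ (((ρ m₀ : GL (Fin 2) (ZMod p)) : Matrix (Fin 2) (Fin 2) (ZMod p)) 0 1 = 0 ∧ ((ρ m₀ : GL (Fin 2) (ZMod p)) : Matrix (Fin 2) (Fin 2) (ZMod p)) 1 0 = 0 ∧
          ((ρ m₀ : GL (Fin 2) (ZMod p)) : Matrix (Fin 2) (Fin 2) (ZMod p)) 0 0 = ((ρ m₀ : GL (Fin 2) (ZMod p)) : Matrix (Fin 2) (Fin 2) (ZMod p)) 1 1) := by
        by_contra hcon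
        apply hsc
        intro m hm
        by_contra h'
        exact hcon ⟨m, hm, h'⟩
      obtain ⟨μ, hμ⟩ : ∃ μ : Matrix (Fin 2) (Fin 2) (ZMod p), μ = ((ρ m₀ : GL (Fin 2) (ZMod p)) : Matrix (Fin 2) (Fin 2) (ZMod p)) := ⟨_, rfl⟩
      rw [← hμ] at hns
      have hconj : ∀ g : X, (((ρ g : GL (Fin 2) (ZMod p)) : Matrix (Fin 2) (Fin 2) (ZMod p)) * μ * (((ρ g)⁻¹ : GL (Fin 2) (ZMod p)) : Matrix (Fin 2) (Fin 2) (ZMod p))) * μ =
          μ * (((ρ g : GL (Fin 2) (ZMod p)) : Matrix (Fin 2) (Fin 2) (ZMod p)) * μ * (((ρ g)⁻¹ : GL (Fin 2) (ZMod p)) : Matrix (Fin 2) (Fin 2) (ZMod p))) := by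
        intro g
        have hmem : g * m₀ * g⁻¹ ∈ M := hMn.conj_mem m₀ hm₀M g
        have h1 := hMab _ hmem _ hm₀M
        rw [map_mul, map_mul, map_inv, Units.val_mul, Units.val_mul, ← hμ] at h1
        exact h1
      by_cases hdisc : ∃ c : ZMod p, (μ - c • (1 : Matrix (Fin 2) (Fin 2) (ZMod p))) * (μ - c • (1 : Matrix (Fin 2) (Fin 2) (ZMod p))) = 0
      · obtain ⟨c, hc⟩ := hdisc
        obtain ⟨N', hN'⟩ : ∃ N' : Matrix (Fin 2) (Fin 2) (ZMod p), N' = μ - c • (1 : Matrix (Fin 2) (Fin 2) (ZMod p)) := ⟨_, rfl⟩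
        rw [← hN'] at hc
        have hN'0 : N' ≠ 0 := by
          intro h0
          apply hns
          have hμc : μ = c • (1 : Matrix (Fin 2) (Fin 2) (ZMod p)) := by
            rw [h0] at hN'
            exact sub_eq_zero.mp hN'.symm
          rw [hμc]
          simp
        obtain ⟨w, hw⟩ : ∃ w : Fin 2 → ZMod p, N'.mulVec w ≠ 0 := by
          by_contra hcon
          push Not at hcon
          apply hN'0
          ext i j
          have h3 := congrFun (hcon (Pi.single j 1)) i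
          rw [Matrix.mulVec_single_one] at h3
          simpa using h3
        obtain ⟨v, hv⟩ : ∃ v : Fin 2 → ZMod p, v = N'.mulVec w := ⟨_, rfl⟩
        have hv0 : v ≠ 0 := hv ▸ hw
        have hNv : N'.mulVec v = 0 := by
          rw [hv, Matrix.mulVec_mulVec, hc, Matrix.zero_mulVec]
        have hker : ∀ u : Fin 2 → ZMod p, N'.mulVec u = 0 → ∃ c' : ZMod p, u = c' • v := by
          intro u hu
          have h1 : (1 + N') ≠ 1 := by
            intro h
            apply hN'0
            simpa using h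
          have h3 := Cfsg.Agent.Lib.helper3.mat2_fix_line (1 + N') h1 v u hv0
            (by rw [Matrix.add_mulVec, Matrix.one_mulVec, hNv, add_zero])
            (by rw [Matrix.add_mulVec, Matrix.one_mulVec, hu, add_zero])
          obtain ⟨c', hc'⟩ := Submodule.mem_span_singleton.mp h3
          exact ⟨c', hc'.symm⟩
        apply hline v hv0
        intro g
        obtain ⟨γ, hγ⟩ : ∃ γ : Matrix (Fin 2) (Fin 2) (ZMod p), γ = ((ρ g : GL (Fin 2) (ZMod p)) : Matrix (Fin 2) (Fin 2) (ZMod p)) := ⟨_, rfl⟩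
        obtain ⟨γ', hγ'⟩ : ∃ γ' : Matrix (Fin 2) (Fin 2) (ZMod p), γ' = (((ρ g)⁻¹ : GL (Fin 2) (ZMod p)) : Matrix (Fin 2) (Fin 2) (ZMod p)) := ⟨_, rfl⟩
        have hgg : γ * γ' = 1 := by
          rw [hγ, hγ', ← Units.val_mul, mul_inv_cancel, Units.val_one]
        have hgg' : γ' * γ = 1 := by
          rw [hγ, hγ', ← Units.val_mul, inv_mul_cancel, Units.val_one]
        have hκμ : (γ' * μ * γ) * μ = μ * (γ' * μ * γ) := by
          have h1 := hconj g⁻¹
          rw [map_inv, inv_inv, ← hγ, ← hγ'] at h1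
          exact h1
        obtain ⟨ν', hν'⟩ : ∃ ν' : Matrix (Fin 2) (Fin 2) (ZMod p), ν' = γ' * N' * γ := ⟨_, rfl⟩
        have hν'eq : ν' = γ' * μ * γ - c • (1 : Matrix (Fin 2) (Fin 2) (ZMod p)) := by
          rw [hν', hN', mul_sub, sub_mul, Matrix.mul_smul, Matrix.smul_mul, mul_one, hgg']
        have hsq : ν' * ν' = 0 := by
          rw [hν']
          calc γ' * N' * γ * (γ' * N' * γ) = γ' * (N' * (γ * γ') * N') * γ := by
                simp only [mul_assoc]
            _ = 0 := by rw [hgg, mul_one, hc, mul_zero, zero_mul]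
        have hcomm : ν' * N' = N' * ν' := by
          rw [hν'eq, hN']
          simp only [sub_mul, mul_sub, Matrix.mul_smul, Matrix.smul_mul, mul_one, one_mul, hκμ]
          abel
        have h4 : N'.mulVec (ν'.mulVec v) = 0 := by
          rw [Matrix.mulVec_mulVec, ← hcomm, ← Matrix.mulVec_mulVec, hNv, Matrix.mulVec_zero]
        obtain ⟨c', hc'⟩ := hker _ h4
        have hc'0 : c' = 0 := by
          have h5 : ν'.mulVec (ν'.mulVec v) = 0 := by
            rw [Matrix.mulVec_mulVec, hsq, Matrix.zero_mulVec]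
          rw [hc', Matrix.mulVec_smul, hc', smul_smul] at h5
          rcases smul_eq_zero.mp h5 with h6 | h6
          · exact mul_self_eq_zero.mp h6
          · exact absurd h6 hv0
        rw [hc'0, zero_smul] at hc'
        have h7 : N'.mulVec (γ.mulVec v) = 0 := by
          have h8 : N' * γ = γ * ν' := by
            rw [hν', ← mul_assoc, ← mul_assoc, hgg, one_mul]
          rw [Matrix.mulVec_mulVec, h8, ← Matrix.mulVec_mulVec, hc', Matrix.mulVec_zero]
        rw [← hγ]
        exact hker _ h7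
      · have hall : ∀ g : X, ((ρ g : GL (Fin 2) (ZMod p)) : Matrix (Fin 2) (Fin 2) (ZMod p)) * μ = μ * ((ρ g : GL (Fin 2) (ZMod p)) : Matrix (Fin 2) (Fin 2) (ZMod p)) := by
          intro g
          rcases conj_comm_dichotomy h2 (ρ g) (Nat.card X) hodd (hcard g) μ hns (hconj g) with h | h
          · exact h
          · exact absurd h hdisc
        apply hab
        intro a b
        exact Cfsg.Agent.Lib.helper3.mat2_comm_of_comm_nonscalar μ _ _ hns (hall a) (hall b)
  · obtain ⟨z₀, hz₀N, hz₀⟩ : ∃ z₀ ∈ N, ρ z₀ ≠ 1 := by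
      by_contra hcon
      apply hB
      intro z hz
      by_contra h'
      exact hcon ⟨z, hz, h'⟩
    obtain ⟨P, hP⟩ : ∃ P : Subgroup (GL (Fin 2) (ZMod p)), P = N.map ρ := ⟨_, rfl⟩
    have hPp : IsPGroup p P := by
      rintro ⟨g, hg⟩
      rw [hP] at hg
      obtain ⟨z, hz, rfl⟩ := hg
      exact ⟨1, Subtype.ext (by rw [pow_one]; exact hNp z hz)⟩
    letI act : MulAction (GL (Fin 2) (ZMod p)) (Fin 2 → ZMod p) := glAct p
    have h0 : (0 : Fin 2 → ZMod p) ∈ MulAction.fixedPoints P (Fin 2 → ZMod p) := by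
      intro g
      exact Matrix.mulVec_zero _
    have hdvd : p ∣ Nat.card (Fin 2 → ZMod p) := by
      rw [Nat.card_fun, Nat.card_zmod, Nat.card_eq_fintype_card, Fintype.card_fin]
      exact dvd_pow_self p two_ne_zero
    obtain ⟨v, hvfix, hv0⟩ :=
      hPp.exists_fixed_point_of_prime_dvd_card_of_fixed_point (Fin 2 → ZMod p) hdvd h0
    have hfixv : ∀ z ∈ N, ((ρ z : GL (Fin 2) (ZMod p)) : Matrix (Fin 2) (Fin 2) (ZMod p)).mulVec v = v := by
      intro z hz
      exact hvfix ⟨ρ z, hP ▸ Subgroup.mem_map_of_mem ρ hz⟩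
    apply hline v (Ne.symm hv0)
    intro g
    have h1 : ((ρ z₀ : GL (Fin 2) (ZMod p)) : Matrix (Fin 2) (Fin 2) (ZMod p)).mulVec (((ρ g : GL (Fin 2) (ZMod p)) : Matrix (Fin 2) (Fin 2) (ZMod p)).mulVec v) = ((ρ g : GL (Fin 2) (ZMod p)) : Matrix (Fin 2) (Fin 2) (ZMod p)).mulVec v := by
      have hmem : g⁻¹ * z₀ * g ∈ N := by
        have h3 := hNn.conj_mem z₀ hz₀N g⁻¹
        rwa [inv_inv] at h3
      have h3 := hfixv _ hmem
      have h4 : ((ρ z₀ : GL (Fin 2) (ZMod p)) : Matrix (Fin 2) (Fin 2) (ZMod p)) * ((ρ g : GL (Fin 2) (ZMod p)) : Matrix (Fin 2) (Fin 2) (ZMod p)) =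
          ((ρ g : GL (Fin 2) (ZMod p)) : Matrix (Fin 2) (Fin 2) (ZMod p)) * ((ρ (g⁻¹ * z₀ * g) : GL (Fin 2) (ZMod p)) : Matrix (Fin 2) (Fin 2) (ZMod p)) := by
        rw [← Units.val_mul, ← Units.val_mul, ← map_mul, ← map_mul]
        congr 2
        group
      rw [Matrix.mulVec_mulVec, h4, ← Matrix.mulVec_mulVec, h3]
    have hne : ((ρ z₀ : GL (Fin 2) (ZMod p)) : Matrix (Fin 2) (Fin 2) (ZMod p)) ≠ 1 := fun h => hz₀ (Units.ext h)
    have h5 := Cfsg.Agent.Lib.helper3.mat2_fix_line _ hne v _ (Ne.symm hv0) (hfixv z₀ hz₀N) h1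
    obtain ⟨c, hc⟩ := Submodule.mem_span_singleton.mp h5
    exact ⟨c, hc.symm⟩

/-- The automorphism group of an elementary abelian group of order `p ^ 2` embeds in `GL₂(p)`. -/
theorem exists_embed {p : ℕ} [Fact p.Prime] {V : Type*} [CommGroup V] [Finite V]
    (hexp : ∀ v : V, v ^ p = 1) (hcard : Nat.card V = p ^ 2) :
    ∃ Φ : MulAut V →* GL (Fin 2) (ZMod p), Function.Injective Φ := by
  obtain ⟨inst1⟩ : Nonempty (Module (ZMod p) (Additive V)) := ⟨AddCommGroup.zmodModule (by
    intro x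
    exact congrArg Additive.ofMul (hexp x.toMul))⟩
  haveI inst2 : Module.Finite (ZMod p) (Additive V) := Module.Finite.of_finite
  have hfr : Module.finrank (ZMod p) (Additive V) = 2 := by
    have h : Nat.card (Additive V) = Nat.card (ZMod p) ^ Module.finrank (ZMod p) (Additive V) :=
      Module.natCard_eq_pow_finrank
    rw [Nat.card_zmod] at h
    have h2 : Nat.card (Additive V) = p ^ 2 := hcard
    rw [h2] at h
    exact (Nat.pow_right_injective (Fact.out : p.Prime).two_le h).symm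
  let b : Module.Basis (Fin 2) (ZMod p) (Additive V) :=
    Module.finBasisOfFinrankEq (ZMod p) (Additive V) hfr
  let lin : MulAut V → (Additive V →ₗ[ZMod p] Additive V) := fun α =>
    AddMonoidHom.toZModLinearMap p (MonoidHom.toAdditive α.toMonoidHom)
  let Φ₀ : MulAut V →* Matrix (Fin 2) (Fin 2) (ZMod p) :=
    { toFun := fun α => LinearMap.toMatrix b b (lin α)
      map_one' := by
        have h : lin 1 = LinearMap.id := by
          ext x
          rfl
        rw [h, LinearMap.toMatrix_id]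
      map_mul' := by
        intro α β
        have h : lin (α * β) = (lin α).comp (lin β) := by
          ext x
          rfl
        rw [h, LinearMap.toMatrix_comp b b b] }
  refine ⟨Φ₀.toHomUnits, ?_⟩
  intro α β h
  have h1 : Φ₀ α = Φ₀ β := by
    have h3 := congrArg Units.val h
    rwa [MonoidHom.coe_toHomUnits, MonoidHom.coe_toHomUnits] at h3
  have h2 : lin α = lin β := (LinearMap.toMatrix b b).injective h1
  ext v
  have h3 := LinearMap.congr_fun h2 (Additive.ofMul v)
  exact congrArg Additive.toMul h3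

/-- A finite solvable group of odd order acting on an elementary abelian `p`-group of order at
most `p ^ 2`, `p` odd: the derived subgroup acts as a group of exponent `p`. -/
theorem aut_core {p : ℕ} [Fact p.Prime] (hp : p ≠ 2) {V : Type*} [CommGroup V] [Finite V]
    (hexp : ∀ v : V, v ^ p = 1) (hcard : Nat.card V ≤ p ^ 2)
    {X : Type u} [Group X] [Finite X] (hodd : Odd (Nat.card X)) (hsol : Group.IsSolvable X)
    (ρ : X →* MulAut V) : ∀ x ∈ commutator X, ρ x ^ p = 1 := by
  have hpp : p.Prime := Fact.out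
  intro x hx
  have hVp : IsPGroup p V := fun v => ⟨1, by rw [pow_one]; exact hexp v⟩
  obtain ⟨k, hk⟩ := IsPGroup.iff_card.mp hVp
  have hk2 : k ≤ 2 := by
    rw [hk] at hcard
    exact (Nat.pow_le_pow_iff_right hpp.one_lt).mp hcard
  by_cases hk' : k = 2
  · obtain ⟨Φ, hΦ⟩ := exists_embed hexp (by rw [hk, hk'])
    have h := core hp (Nat.card X) X rfl hodd hsol (Φ.comp ρ) x hx
    apply hΦ
    rw [map_pow, map_one]
    exact h
  · haveI : IsCyclic V := by
      have hk1 : k = 0 ∨ k = 1 := by omega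
      rcases hk1 with rfl | rfl
      · haveI : Subsingleton V := by
          rw [← Finite.card_le_one_iff_subsingleton, hk, pow_zero]
        infer_instance
      · exact isCyclic_of_prime_card (p := p) (by rw [hk, pow_one])
    have hcomm : ∀ α β : MulAut V, α * β = β * α := by
      intro α β
      apply (IsCyclic.mulAutMulEquiv V).injective
      rw [map_mul, map_mul, mul_comm]
    have hle : commutator X ≤ ρ.ker := by
      rw [commutator_def, Subgroup.commutator_le]
      intro a _ b _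
      rw [MonoidHom.mem_ker, map_commutatorElement, commutatorElement_eq_one_iff_mul_comm]
      exact hcomm _ _
    rw [MonoidHom.mem_ker.mp (hle hx), one_pow]

end Cfsg.Agent.Lib.helper15.GL2D
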