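import Mathlib
import Cfsg.Agent.Lib.helper15.GL2Der

set_option autoImplicit false
set_option linter.style.haveILetI false

namespace Cfsg.Agent.Lib.helper15.GL2D

universe u

open scoped commutatorElement

theorem p_mul_card_le {G : Type*} [Group G] [Finite G] {p : ℕ} [Fact p.Prime] (H K : Subgroup G)
    (hK : IsPGroup p K) (hHK : H ≤ K) (hne : H ≠ K) : p * Nat.card H ≤ Nat.card K := by
  have hpp : p.Prime := Fact.out
  obtain ⟨k, hk⟩ := IsPGroup.iff_card.mp hK
  have hdvd : Nat.card H ∣ Nat.card K := Subgroup.card_dvd_of_le hHK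
  rw [hk] at hdvd
  obtain ⟨j, hj, hj'⟩ := (Nat.dvd_prime_pow hpp).mp hdvd
  have hjk : j < k := by
    rcases Nat.lt_or_ge j k with h | h
    · exact h
    · exfalso
      apply hne
      have h3 : j = k := le_antisymm hj h
      exact Subgroup.eq_of_le_of_card_ge hHK (by rw [hk, hj', h3])
  rw [hk, hj', ← pow_succ']
  exact Nat.pow_le_pow_right hpp.pos hjk

theorem comm_mem {G : Type*} [Group G] (D : Subgroup G) {x y : G} (hx : x ∈ D) (hy : y ∈ D) :
    ⁅x, y⁆ ∈ D := by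
  rw [commutatorElement_def]
  exact D.mul_mem (D.mul_mem (D.mul_mem hx hy) (D.inv_mem hx)) (D.inv_mem hy)

theorem comm_mul_left_central {G : Type*} [Group G] (x z w : G) (hz : z * w = w * z) :
    ⁅x * z, w⁆ = ⁅x, w⁆ := by
  have h1 : z * w * z⁻¹ = w := by rw [hz, mul_inv_cancel_right]
  have h2 : ⁅x * z, w⁆ = x * (z * w * z⁻¹) * x⁻¹ * w⁻¹ := by
    simp only [commutatorElement_def]
    group
  rw [h2, h1, commutatorElement_def]

theorem comm_mul_right_central {G : Type*} [Group G] (x y z : G) (hz : z * x = x * z) :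
    ⁅x, y * z⁆ = ⁅x, y⁆ := by
  have h1 : x * z * x⁻¹ = z := by rw [← hz, mul_inv_cancel_right]
  have h2 : ⁅x, y * z⁆ = x * y * x⁻¹ * (x * z * x⁻¹) * z⁻¹ * y⁻¹ := by
    simp only [commutatorElement_def]
    group
  rw [h2, h1, commutatorElement_def]
  group

theorem conj_pow_of_comm {G : Type*} [Group G] (b d z : G) (h1 : b * d * b⁻¹ = d * z)
    (h2 : b * z = z * b) (k : ℕ) : b ^ k * d * (b ^ k)⁻¹ = d * z ^ k := by
  induction k with
  | zero => simp
  | succ k ih =>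
    have h3 : b * z ^ k * b⁻¹ = z ^ k := by
      have h4 : Commute b (z ^ k) := Commute.pow_right h2 k
      rw [h4.eq, mul_inv_cancel_right]
    calc b ^ (k + 1) * d * (b ^ (k + 1))⁻¹ = b * (b ^ k * d * (b ^ k)⁻¹) * b⁻¹ := by
          rw [pow_succ']
          group
      _ = (b * d * b⁻¹) * (b * z ^ k * b⁻¹) := by
          rw [ih]
          group
      _ = d * z ^ (k + 1) := by
          rw [h1, h3, pow_succ', mul_assoc]

/-- Rank bound for the critical subgroup. -/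
theorem card_le_of_rank {G : Type*} [Group G] [Finite G] {p : ℕ} [Fact p.Prime] (D : Subgroup G)
    (hexp : ∀ d ∈ D, d ^ p = 1)
    (hcl : ∀ x ∈ D, ∀ y ∈ D, ∀ z ∈ D, ⁅x, y⁆ * z = z * ⁅x, y⁆)
    (hrk : ∀ E : Subgroup G, E ≤ D → (∀ x ∈ E, ∀ y ∈ E, x * y = y * x) → Nat.card E ≤ p ^ 2) :
    Nat.card D ≤ p ^ 2 * Nat.card ↥⁅D, D⁆ := by
  have hpp : p.Prime := Fact.out
  by_cases hab : ∀ x ∈ D, ∀ y ∈ D, x * y = y * x
  · calc Nat.card D ≤ p ^ 2 := hrk D le_rfl hab
      _ ≤ p ^ 2 * Nat.card ↥⁅D, D⁆ := Nat.le_mul_of_pos_right _ Nat.card_pos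
  · obtain ⟨x₀, hx₀, y₀, hy₀, hxy⟩ : ∃ x₀ ∈ D, ∃ y₀ ∈ D, x₀ * y₀ ≠ y₀ * x₀ := by
      by_contra hcon
      apply hab
      intro x hx y hy
      by_contra h'
      exact hcon ⟨x, hx, y, hy, h'⟩
    obtain ⟨C, hC⟩ : ∃ C : Subgroup G, C = D ⊓ Subgroup.centralizer ({x₀} : Set G) := ⟨_, rfl⟩
    have hCmem : ∀ g, g ∈ C ↔ g ∈ D ∧ x₀ * g = g * x₀ := by
      intro g
      rw [hC, Subgroup.mem_inf, Subgroup.mem_centralizer_iff]
      simp
    have hDp : ∀ E : Subgroup G, E ≤ D → IsPGroup p E := fun E hE g =>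
      ⟨1, Subtype.ext (by rw [pow_one, Subgroup.coe_pow]; exact hexp _ (hE g.2))⟩
    have hCab : ∀ y ∈ C, ∀ y' ∈ C, y * y' = y' * y := by
      intro y hy y' hy'
      by_contra hne
      obtain ⟨Z, hZ⟩ : ∃ Z : Subgroup G, Z = D ⊓ Subgroup.centralizer (D : Set G) := ⟨_, rfl⟩
      have hZmem : ∀ g, g ∈ Z ↔ g ∈ D ∧ ∀ d ∈ D, d * g = g * d := by
        intro g
        rw [hZ, Subgroup.mem_inf, Subgroup.mem_centralizer_iff]
        rfl
      obtain ⟨E₁, hE₁⟩ : ∃ E₁ : Subgroup G, E₁ = Subgroup.closure ((Z : Set G) ∪ {x₀}) := ⟨_, rfl⟩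
      obtain ⟨E₂, hE₂⟩ : ∃ E₂ : Subgroup G, E₂ = Subgroup.closure ((Z : Set G) ∪ {x₀, y}) :=
        ⟨_, rfl⟩
      have hyD := ((hCmem y).mp hy).1
      have hy'D := ((hCmem y').mp hy').1
      have hE₂D : E₂ ≤ D := by
        rw [hE₂, Subgroup.closure_le]
        rintro g (hg | hg | hg)
        · exact ((hZmem g).mp hg).1
        · rw [hg]
          exact hx₀
        · rw [Set.mem_singleton_iff.mp hg]
          exact hyD
      have hE₁E₂ : E₁ ≤ E₂ := by
        rw [hE₁, hE₂]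
        apply Subgroup.closure_mono
        apply Set.union_subset_union_right
        intro g hg
        rw [Set.mem_singleton_iff.mp hg]
        exact Set.mem_insert _ _
      have hZE₁ : Z ≤ E₁ := by
        rw [hE₁]
        intro g hg
        exact Subgroup.subset_closure (Or.inl hg)
      have hE₂ab : ∀ a ∈ E₂, ∀ b ∈ E₂, a * b = b * a := by
        have hgen : ∀ a ∈ ((Z : Set G) ∪ {x₀, y}), ∀ b ∈ ((Z : Set G) ∪ {x₀, y}),
            a * b = b * a := by
          rintro a (ha | ha | ha) b (hb | hb | hb)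
          · exact ((hZmem b).mp hb).2 a ((hZmem a).mp ha).1
          · rw [hb]
            exact (((hZmem a).mp ha).2 x₀ hx₀).symm
          · rw [Set.mem_singleton_iff.mp hb]
            exact (((hZmem a).mp ha).2 y hyD).symm
          · rw [ha]
            exact ((hZmem b).mp hb).2 x₀ hx₀
          · rw [ha, hb]
          · rw [ha, Set.mem_singleton_iff.mp hb]
            exact ((hCmem y).mp hy).2
          · rw [Set.mem_singleton_iff.mp ha]
            exact ((hZmem b).mp hb).2 y hyD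
          · rw [Set.mem_singleton_iff.mp ha, hb]
            exact (((hCmem y).mp hy).2).symm
          · rw [Set.mem_singleton_iff.mp ha, Set.mem_singleton_iff.mp hb]
        intro a ha b hb
        rw [hE₂] at ha hb
        have h3 := (Subgroup.isMulCommutative_closure hgen).is_comm.comm ⟨a, ha⟩ ⟨b, hb⟩
        exact congrArg Subtype.val h3
      have hE₂card : Nat.card E₂ ≤ p ^ 2 := hrk E₂ hE₂D hE₂ab
      have hne1 : Z ≠ E₁ := by
        intro h
        have hx₀Z : x₀ ∈ Z := by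
          rw [h, hE₁]
          exact Subgroup.subset_closure (Or.inr rfl)
        exact hxy (((hZmem x₀).mp hx₀Z).2 y₀ hy₀).symm
      have hne2 : E₁ ≠ E₂ := by
        intro h
        have hyE₁ : y ∈ E₁ := by
          rw [h, hE₂]
          exact Subgroup.subset_closure (Or.inr (Or.inr rfl))
        have hle : E₁ ≤ Subgroup.centralizer ({y'} : Set G) := by
          rw [hE₁, Subgroup.closure_le]
          rintro g (hg | hg)
          · rw [SetLike.mem_coe, Subgroup.mem_centralizer_iff]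
            intro h hh
            rw [Set.mem_singleton_iff.mp hh]
            exact ((hZmem g).mp hg).2 y' hy'D
          · rw [Set.mem_singleton_iff.mp hg, SetLike.mem_coe, Subgroup.mem_centralizer_iff]
            intro h hh
            rw [Set.mem_singleton_iff.mp hh]
            exact (((hCmem y').mp hy').2).symm
        have h3 := Subgroup.mem_centralizer_iff.mp (hle hyE₁) y' rfl
        exact hne h3.symm
      have h1 := p_mul_card_le Z E₁ (hDp E₁ (hE₁E₂.trans hE₂D)) hZE₁ hne1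
      have h2 := p_mul_card_le E₁ E₂ (hDp E₂ hE₂D) hE₁E₂ hne2
      have hZ2 : 1 < Nat.card Z := by
        have hmem : ⁅x₀, y₀⁆ ∈ Z :=
          (hZmem _).mpr ⟨comm_mem D hx₀ hy₀, fun d hd => (hcl x₀ hx₀ y₀ hy₀ d hd).symm⟩
        have hne' : ⁅x₀, y₀⁆ ≠ 1 := fun h => hxy (commutatorElement_eq_one_iff_mul_comm.mp h)
        have hZbot : Z ≠ ⊥ := fun h => hne' (Subgroup.mem_bot.mp (h ▸ hmem))
        exact (Subgroup.one_lt_card_iff_ne_bot Z).mpr hZbot
      have hp2 : 2 ≤ p := hpp.two_le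
      nlinarith
    have hCcard : Nat.card C ≤ p ^ 2 := hrk C (by rw [hC]; exact inf_le_left) hCab
    let f : ↥D →* G :=
      { toFun := fun d => ⁅(d : G), x₀⁆
        map_one' := by simp
        map_mul' := by
          intro d d'
          have e1 : ⁅(d : G) * d', x₀⁆ = (d : G) * ⁅(d' : G), x₀⁆ * (d : G)⁻¹ * ⁅(d : G), x₀⁆ := by
            simp only [commutatorElement_def]
            group
          have e2 : (d : G) * ⁅(d' : G), x₀⁆ * (d : G)⁻¹ = ⁅(d' : G), x₀⁆ := by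
            rw [← hcl d' d'.2 x₀ hx₀ d d.2, mul_inv_cancel_right]
          have e3 := hcl d' d'.2 x₀ hx₀ ⁅(d : G), x₀⁆ (comm_mem D d.2 hx₀)
          show ⁅((d * d' : ↥D) : G), x₀⁆ = ⁅(d : G), x₀⁆ * ⁅(d' : G), x₀⁆
          rw [Subgroup.coe_mul, e1, e2, e3] }
    have hker : Nat.card f.ker ≤ p ^ 2 := by
      have h1 : f.ker.map D.subtype ≤ C := by
        rintro g ⟨d, hd, rfl⟩
        rw [hCmem]
        refine ⟨d.2, ?_⟩
        have h3 : ⁅(d : G), x₀⁆ = 1 := MonoidHom.mem_ker.mp hd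
        exact (commutatorElement_eq_one_iff_mul_comm.mp h3).symm
      calc Nat.card f.ker = Nat.card (f.ker.map D.subtype) :=
            (Subgroup.card_map_of_injective D.subtype_injective).symm
        _ ≤ Nat.card C := Subgroup.card_le_of_le h1
        _ ≤ p ^ 2 := hCcard
    have hrange : Nat.card f.range ≤ Nat.card ↥⁅D, D⁆ := by
      apply Subgroup.card_le_of_le
      rintro g ⟨d, rfl⟩
      exact Subgroup.commutator_mem_commutator d.2 hx₀
    calc Nat.card D = Nat.card f.ker * f.ker.index := (Subgroup.card_mul_index f.ker).symm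
      _ = Nat.card f.ker * Nat.card f.range := by rw [Subgroup.index_ker]
      _ ≤ p ^ 2 * Nat.card ↥⁅D, D⁆ := Nat.mul_le_mul hker hrange

/-- Abstract form: odd solvable `A` acting on a class-two exponent-`p` group `D` of rank two,
with `p'`-elements of `A` centralizing `D` trivial. -/
theorem main_abs {G : Type u} [Group G] [Finite G] (p : ℕ) [Fact p.Prime] (hp : p ≠ 2)
    (D A : Subgroup G)
    (hexp : ∀ d ∈ D, d ^ p = 1)
    (hcl : ∀ x ∈ D, ∀ y ∈ D, ∀ z ∈ D, ⁅x, y⁆ * z = z * ⁅x, y⁆)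
    (hrk : ∀ E : Subgroup G, E ≤ D → (∀ x ∈ E, ∀ y ∈ E, x * y = y * x) → Nat.card E ≤ p ^ 2)
    (hAD : A ≤ Subgroup.normalizer (D : Set G)) (hAs : Group.IsSolvable A)
    (hAodd : Odd (Nat.card A))
    (hfa : ∀ a ∈ A, (orderOf a).Coprime p → (∀ d ∈ D, a * d * a⁻¹ = d) → a = 1) :
    IsPGroup p ↥⁅A, A⁆ := by
  have hpp : p.Prime := Fact.out
  have hcardD := card_le_of_rank D hexp hcl hrk
  have hVcard : Nat.card (Abelianization ↥D) ≤ p ^ 2 := by
    have h1 : Nat.card ↥D = Nat.card (↥D ⧸ commutator ↥D) * Nat.card ↥(commutator ↥D) :=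
      Subgroup.card_eq_card_quotient_mul_card_subgroup _
    have h2 : Nat.card ↥(commutator ↥D) = Nat.card ↥⁅D, D⁆ := by
      rw [← Subgroup.map_subtype_commutator D, Subgroup.card_map_of_injective D.subtype_injective]
    rw [h2] at h1
    rw [h1] at hcardD
    exact Nat.le_of_mul_le_mul_right hcardD Nat.card_pos
  have hVexp : ∀ v : Abelianization ↥D, v ^ p = 1 := by
    intro v
    have hs : Function.Surjective (Abelianization.of : ↥D →* Abelianization ↥D) :=
      QuotientGroup.mk_surjective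
    obtain ⟨d, rfl⟩ := hs v
    have h3 : d ^ p = 1 := Subtype.ext (by rw [Subgroup.coe_pow]; exact hexp _ d.2)
    rw [← map_pow, h3, map_one]
  let c : ↥A →* MulAut ↥D := D.normalizerMonoidHom.comp (Subgroup.inclusion hAD)
  have hc : ∀ (a : ↥A) (d : ↥D), ((c a d : ↥D) : G) = (a : G) * d * (a : G)⁻¹ := fun a d => rfl
  let ab : MulAut ↥D →* MulAut (Abelianization ↥D) :=
    { toFun := fun e => e.abelianizationCongr
      map_one' := abelianizationCongr_refl
      map_mul' := fun e₁ e₂ => (abelianizationCongr_trans e₂ e₁).symm }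
  have hab : ∀ (e : MulAut ↥D) (d : ↥D),
      ab e (Abelianization.of d) = Abelianization.of (e d) := fun e d => rfl
  have hcore := aut_core hp hVexp hVcard hAodd hAs (ab.comp c)
  obtain ⟨Z, hZ⟩ : ∃ Z : Subgroup G, Z = D ⊓ Subgroup.centralizer (D : Set G) := ⟨_, rfl⟩
  have hZmem : ∀ g, g ∈ Z ↔ g ∈ D ∧ ∀ d ∈ D, d * g = g * d := by
    intro g
    rw [hZ, Subgroup.mem_inf, Subgroup.mem_centralizer_iff]
    rfl
  have hD'Z : ⁅D, D⁆ ≤ Z := by
    rw [Subgroup.commutator_le]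
    intro x hx y hy
    exact (hZmem _).mpr ⟨comm_mem D hx hy, fun d hd => (hcl x hx y hy d hd).symm⟩
  have hel : ∀ a ∈ commutator ↥A, ∃ k : ℕ, (a : G) ^ (p ^ k) = 1 := by
    intro a ha
    have h1 := hcore a ha
    obtain ⟨b, hb⟩ : ∃ b : G, b = (a : G) ^ p := ⟨_, rfl⟩
    have hbA : b ∈ A := by
      rw [hb]
      exact A.pow_mem a.2 p
    have hbD : ∀ d ∈ D, d⁻¹ * (b * d * b⁻¹) ∈ ⁅D, D⁆ := by
      intro d hd
      have h2 : (ab.comp c) (a ^ p) = 1 := by
        rw [map_pow]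
        exact h1
      have h3 : ab (c (a ^ p)) (Abelianization.of ⟨d, hd⟩) = Abelianization.of ⟨d, hd⟩ := by
        have h4 : ab (c (a ^ p)) = 1 := h2
        rw [h4]
        rfl
      rw [hab] at h3
      have h4 : (⟨d, hd⟩ : ↥D)⁻¹ * (c (a ^ p) ⟨d, hd⟩) ∈ commutator ↥D :=
        QuotientGroup.eq.mp h3.symm
      have h5 : D.subtype ((⟨d, hd⟩ : ↥D)⁻¹ * (c (a ^ p) ⟨d, hd⟩)) ∈ ⁅D, D⁆ := by
        rw [← Subgroup.map_subtype_commutator D]
        exact Subgroup.mem_map_of_mem _ h4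
      rw [hb]
      exact h5
    have hbcomm : ∀ g ∈ ⁅D, D⁆, b * g = g * b := by
      have hle : ⁅D, D⁆ ≤ Subgroup.centralizer ({b} : Set G) := by
        rw [Subgroup.commutator_le]
        intro x hx y hy
        rw [Subgroup.mem_centralizer_iff]
        intro h hh
        rw [Set.mem_singleton_iff.mp hh]
        have hz := hbD x hx
        have hz' := hbD y hy
        have hzZ := (hZmem _).mp (hD'Z hz)
        have hz'Z := (hZmem _).mp (hD'Z hz')
        have e1 : b * x * b⁻¹ = x * (x⁻¹ * (b * x * b⁻¹)) := by group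
        have e2 : b * y * b⁻¹ = y * (y⁻¹ * (b * y * b⁻¹)) := by group
        have e3 : b * ⁅x, y⁆ * b⁻¹ = ⁅b * x * b⁻¹, b * y * b⁻¹⁆ := by
          simp only [commutatorElement_def]
          group
        have e4 : b * ⁅x, y⁆ * b⁻¹ = ⁅x, y⁆ := by
          rw [e3, e1, e2, comm_mul_left_central x _ _
            ((hzZ.2 _ (D.mul_mem hy hz'Z.1)).symm), comm_mul_right_central x y _ (hz'Z.2 x hx).symm]
        calc b * ⁅x, y⁆ = b * ⁅x, y⁆ * b⁻¹ * b := by group
          _ = ⁅x, y⁆ * b := by rw [e4]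
      intro g hg
      exact Subgroup.mem_centralizer_iff.mp (hle hg) b rfl
    obtain ⟨c₀, hc₀⟩ : ∃ c₀ : G, c₀ = b ^ p := ⟨_, rfl⟩
    have hc₀A : c₀ ∈ A := by
      rw [hc₀]
      exact A.pow_mem hbA p
    have hc₀D : c₀ ∈ Subgroup.centralizer (D : Set G) := by
      rw [Subgroup.mem_centralizer_iff]
      intro d hd
      have hz := hbD d hd
      have e1 : b * d * b⁻¹ = d * (d⁻¹ * (b * d * b⁻¹)) := by group
      have e2 := conj_pow_of_comm b d _ e1 (hbcomm _ hz) p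
      rw [hexp _ ((hZmem _).mp (hD'Z hz)).1, mul_one, ← hc₀] at e2
      calc d * c₀ = c₀ * d * c₀⁻¹ * c₀ := by rw [e2]
        _ = c₀ * d := by group
    obtain ⟨i, m, hm, ho⟩ := Nat.exists_eq_pow_mul_and_not_dvd (orderOf_pos c₀).ne' p hpp.ne_one
    have hc₁A : c₀ ^ (p ^ i) ∈ A := A.pow_mem hc₀A _
    have hc₁D : c₀ ^ (p ^ i) ∈ Subgroup.centralizer (D : Set G) := Subgroup.pow_mem _ hc₀D _
    have hc₁ : c₀ ^ (p ^ i) = 1 := by
      apply hfa _ hc₁A
      · have hdvd : orderOf (c₀ ^ (p ^ i)) ∣ m := by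
          apply orderOf_dvd_of_pow_eq_one
          rw [← pow_mul, ← ho, pow_orderOf_eq_one]
        exact Nat.Coprime.coprime_dvd_left hdvd ((Nat.Prime.coprime_iff_not_dvd hpp).mpr hm).symm
      · intro d hd
        have h3 := Subgroup.mem_centralizer_iff.mp hc₁D d hd
        rw [← h3, mul_inv_cancel_right]
    refine ⟨i + 2, ?_⟩
    have h3 : p ^ (i + 2) = p * p * p ^ i := by ring
    rw [h3, pow_mul, pow_mul, ← hb, ← hc₀]
    exact hc₁
  rintro ⟨g, hg⟩
  have hg' := hg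
  rw [← Subgroup.map_subtype_commutator A] at hg'
  obtain ⟨a, ha, rfl⟩ := hg'
  obtain ⟨k, hk⟩ := hel a ha
  exact ⟨k, Subtype.ext (by rw [Subgroup.coe_pow]; exact hk)⟩

/-- Transfer from a critical subgroup of `↥R`. -/
theorem s1449_main {G : Type u} [Group G] [Finite G] (p : ℕ) [Fact p.Prime] (hp : p ≠ 2)
    (R A : Subgroup G)
    (hrk : ∀ E : Subgroup G, E ≤ R → (∀ x ∈ E, ∀ y ∈ E, x * y = y * x) → (∀ x ∈ E, x ^ p = 1) →
      Nat.card E ≤ p ^ 2)
    (hA : A ≤ Subgroup.normalizer (R : Set G)) (hAs : Group.IsSolvable A)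
    (hAodd : Odd (Nat.card A)) (hfaith : A ⊓ Subgroup.centralizer (R : Set G) = ⊥)
    (D' : Subgroup ↥R) (h1 : ∀ α : MulAut ↥R, D'.map α.toMonoidHom = D')
    (h3 : ∀ d ∈ D', d ^ p = 1)
    (h4 : ⁅D', (⊤ : Subgroup ↥R)⁆ ≤ D' ⊓ Subgroup.centralizer (D' : Set ↥R))
    (h5 : ∀ α : MulAut ↥R, (orderOf α).Coprime p → (∀ d ∈ D', α d = d) → α = 1) :
    IsPGroup p ↥⁅A, A⁆ := by
  obtain ⟨D, hD⟩ : ∃ D : Subgroup G, D = D'.map R.subtype := ⟨_, rfl⟩
  have hDR : D ≤ R := by
    rw [hD]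
    exact Subgroup.map_subtype_le D'
  have hDmem : ∀ g, g ∈ D ↔ ∃ h : g ∈ R, (⟨g, h⟩ : ↥R) ∈ D' := by
    intro g
    rw [hD]
    constructor
    · rintro ⟨d, hd, rfl⟩
      exact ⟨d.2, hd⟩
    · rintro ⟨h, hd⟩
      exact ⟨⟨g, h⟩, hd, rfl⟩
  have hexpD : ∀ d ∈ D, d ^ p = 1 := by
    intro d hd
    obtain ⟨hdR, hdD'⟩ := (hDmem d).mp hd
    exact congrArg Subtype.val (h3 _ hdD')
  let φ : ↥A →* MulAut ↥R := R.normalizerMonoidHom.comp (Subgroup.inclusion hA)
  have hφ : ∀ (a : ↥A) (r : ↥R), ((φ a r : ↥R) : G) = (a : G) * r * (a : G)⁻¹ := fun a r => rfl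
  have hconj : ∀ a ∈ A, ∀ d ∈ D, a * d * a⁻¹ ∈ D := by
    intro a ha d hd
    obtain ⟨hdR, hdD'⟩ := (hDmem d).mp hd
    have h6 : φ ⟨a, ha⟩ ⟨d, hdR⟩ ∈ D'.map (φ ⟨a, ha⟩).toMonoidHom := Subgroup.mem_map_of_mem _ hdD'
    rw [h1] at h6
    rw [hD]
    exact ⟨_, h6, rfl⟩
  have hAD : A ≤ Subgroup.normalizer (D : Set G) := by
    intro a ha
    rw [Subgroup.mem_normalizer_iff]
    intro d
    constructor
    · exact hconj a ha d
    · intro h
      have h6 := hconj a⁻¹ (A.inv_mem ha) _ h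
      have h7 : a⁻¹ * (a * d * a⁻¹) * a⁻¹⁻¹ = d := by group
      rwa [h7] at h6
  apply main_abs p hp D A hexpD
  · intro x hx y hy z hz
    obtain ⟨hxR, hxD'⟩ := (hDmem x).mp hx
    obtain ⟨hyR, hyD'⟩ := (hDmem y).mp hy
    obtain ⟨hzR, hzD'⟩ := (hDmem z).mp hz
    have h6 : ⁅(⟨x, hxR⟩ : ↥R), ⟨y, hyR⟩⁆ ∈ ⁅D', (⊤ : Subgroup ↥R)⁆ :=
      Subgroup.commutator_mem_commutator hxD' (Subgroup.mem_top _)
    have h7 : ⁅(⟨x, hxR⟩ : ↥R), ⟨y, hyR⟩⁆ ∈ Subgroup.centralizer (D' : Set ↥R) := (h4 h6).2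
    rw [Subgroup.mem_centralizer_iff] at h7
    have h8 := h7 ⟨z, hzR⟩ hzD'
    exact (congrArg Subtype.val h8).symm
  · intro E hE hEab
    exact hrk E (hE.trans hDR) hEab (fun x hx => hexpD x (hE hx))
  · exact hAD
  · exact hAs
  · exact hAodd
  · intro a ha hcop hcent
    have h6 : φ ⟨a, ha⟩ = 1 := by
      apply h5
      · have hdvd : orderOf (φ ⟨a, ha⟩) ∣ orderOf (⟨a, ha⟩ : ↥A) := orderOf_map_dvd φ _
        rw [Subgroup.orderOf_mk] at hdvd
        exact Nat.Coprime.coprime_dvd_left hdvd hcop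
      · intro d hd
        apply Subtype.ext
        rw [hφ]
        exact hcent d ((hDmem d).mpr ⟨d.2, hd⟩)
    have h7 : a ∈ A ⊓ Subgroup.centralizer (R : Set G) := by
      refine Subgroup.mem_inf.mpr ⟨ha, ?_⟩
      rw [Subgroup.mem_centralizer_iff]
      intro r hr
      have h8 : ((φ ⟨a, ha⟩ ⟨r, hr⟩ : ↥R) : G) = r := by
        rw [h6]
        rfl
      rw [hφ] at h8
      calc r * a = a * r * a⁻¹ * a := by rw [h8]
        _ = a * r := by group
    rw [hfaith] at h7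
    exact Subgroup.mem_bot.mp h7

end Cfsg.Agent.Lib.helper15.GL2D
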