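import Mathlib
import Cfsg.Agent.Lib.helper15.RankTwo

set_option autoImplicit false
set_option linter.style.haveILetI false

namespace Cfsg.Agent.Lib.helper15.GL2D

universe u

open scoped commutatorElement

/-- The action of `A ≤ N(D)` on the abelianization of `D`. -/
noncomputable def rhoAb {G : Type u} [Group G] (D A : Subgroup G)
    (hAD : A ≤ Subgroup.normalizer (D : Set G)) : ↥A →* MulAut (Abelianization ↥D) :=
  ({ toFun := fun e => e.abelianizationCongr
     map_one' := abelianizationCongr_refl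
     map_mul' := fun e₁ e₂ => (abelianizationCongr_trans e₂ e₁).symm } :
    MulAut ↥D →* MulAut (Abelianization ↥D)).comp
    (D.normalizerMonoidHom.comp (Subgroup.inclusion hAD))

theorem rhoAb_of {G : Type u} [Group G] (D A : Subgroup G)
    (hAD : A ≤ Subgroup.normalizer (D : Set G)) (a : ↥A) (d : ↥D) :
    rhoAb D A hAD a (Abelianization.of d) =
      Abelianization.of (⟨(a : G) * d * (a : G)⁻¹,
        (Subgroup.mem_normalizer_iff.mp (hAD a.2) d).mp d.2⟩ : ↥D) := rfl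

theorem rhoAb_one {G : Type u} [Group G] (D A : Subgroup G)
    (hAD : A ≤ Subgroup.normalizer (D : Set G)) (a : ↥A) (h : rhoAb D A hAD a = 1) :
    ∀ d ∈ D, d⁻¹ * ((a : G) * d * (a : G)⁻¹) ∈ ⁅D, D⁆ := by
  intro d hd
  have h3 : rhoAb D A hAD a (Abelianization.of ⟨d, hd⟩) = Abelianization.of ⟨d, hd⟩ := by
    rw [h]
    rfl
  rw [rhoAb_of] at h3
  have h4 := QuotientGroup.eq.mp h3.symm
  have h5 := Subgroup.mem_map_of_mem D.subtype h4
  rw [Subgroup.map_subtype_commutator D] at h5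
  exact h5

/-- An element acting trivially on `D / D'` has its `p`-th power centralizing `D`. -/
theorem pow_mem_centralizer_of_trivial {G : Type u} [Group G] (p : ℕ) (D : Subgroup G)
    (hexp : ∀ d ∈ D, d ^ p = 1)
    (hcl : ∀ x ∈ D, ∀ y ∈ D, ∀ z ∈ D, ⁅x, y⁆ * z = z * ⁅x, y⁆) (b : G)
    (hbD : ∀ d ∈ D, d⁻¹ * (b * d * b⁻¹) ∈ ⁅D, D⁆) :
    b ^ p ∈ Subgroup.centralizer (D : Set G) := by
  obtain ⟨Z, hZ⟩ : ∃ Z : Subgroup G, Z = D ⊓ Subgroup.centralizer (D : Set G) := ⟨_, rfl⟩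
  have hZmem : ∀ g, g ∈ Z ↔ g ∈ D ∧ ∀ d ∈ D, d * g = g * d := by
    intro g
    rw [hZ, Subgroup.mem_inf, Subgroup.mem_centralizer_iff]
    rfl
  have hD'Z : ⁅D, D⁆ ≤ Z := by
    rw [Subgroup.commutator_le]
    intro x hx y hy
    exact (hZmem _).mpr ⟨comm_mem D hx hy, fun d hd => (hcl x hx y hy d hd).symm⟩
  have hbcomm : ∀ g ∈ ⁅D, D⁆, b * g = g * b := by
    have hle : ⁅D, D⁆ ≤ Subgroup.centralizer ({b} : Set G) := by
      rw [Subgroup.commutator_le]
      intro x hx y hy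
      rw [Subgroup.mem_centralizer_iff]
      intro h hh
      rw [Set.mem_singleton_iff.mp hh]
      have hz := hbD x hx
      have hz' := hbD y hy
      have hzZ := (hZmem _).mp (hD'Z hz)
      have hz'Z := (hZmem _).mp (hD'Z hz')
      have e1 : b * x * b⁻¹ = x * (x⁻¹ * (b * x * b⁻¹)) := by group
      have e2 : b * y * b⁻¹ = y * (y⁻¹ * (b * y * b⁻¹)) := by group
      have e3 : b * ⁅x, y⁆ * b⁻¹ = ⁅b * x * b⁻¹, b * y * b⁻¹⁆ := by
        simp only [commutatorElement_def]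
        group
      have e4 : b * ⁅x, y⁆ * b⁻¹ = ⁅x, y⁆ := by
        rw [e3, e1, e2, comm_mul_left_central x _ _
          ((hzZ.2 _ (D.mul_mem hy hz'Z.1)).symm), comm_mul_right_central x y _ (hz'Z.2 x hx).symm]
      calc b * ⁅x, y⁆ = b * ⁅x, y⁆ * b⁻¹ * b := by group
        _ = ⁅x, y⁆ * b := by rw [e4]
    intro g hg
    exact Subgroup.mem_centralizer_iff.mp (hle hg) b rfl
  rw [Subgroup.mem_centralizer_iff]
  intro d hd
  have hz := hbD d hd
  have e1 : b * d * b⁻¹ = d * (d⁻¹ * (b * d * b⁻¹)) := by group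
  have e2 := conj_pow_of_comm b d _ e1 (hbcomm _ hz) p
  rw [hexp _ ((hZmem _).mp (hD'Z hz)).1, mul_one] at e2
  calc d * b ^ p = b ^ p * d * (b ^ p)⁻¹ * b ^ p := by rw [e2]
    _ = b ^ p * d := by group

theorem ab_card_le {G : Type u} [Group G] [Finite G] (p : ℕ) [Fact p.Prime] (D : Subgroup G)
    (hexp : ∀ d ∈ D, d ^ p = 1)
    (hcl : ∀ x ∈ D, ∀ y ∈ D, ∀ z ∈ D, ⁅x, y⁆ * z = z * ⁅x, y⁆)
    (hrk : ∀ E : Subgroup G, E ≤ D → (∀ x ∈ E, ∀ y ∈ E, x * y = y * x) → Nat.card E ≤ p ^ 2) :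
    Nat.card (Abelianization ↥D) ≤ p ^ 2 := by
  have hcardD := card_le_of_rank D hexp hcl hrk
  have h1 : Nat.card ↥D = Nat.card (↥D ⧸ commutator ↥D) * Nat.card ↥(commutator ↥D) :=
    Subgroup.card_eq_card_quotient_mul_card_subgroup _
  have h2 : Nat.card ↥(commutator ↥D) = Nat.card ↥⁅D, D⁆ := by
    rw [← Subgroup.map_subtype_commutator D, Subgroup.card_map_of_injective D.subtype_injective]
  rw [h2] at h1
  rw [h1] at hcardD
  exact Nat.le_of_mul_le_mul_right hcardD Nat.card_pos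

theorem ab_exp {G : Type u} [Group G] (p : ℕ) (D : Subgroup G) (hexp : ∀ d ∈ D, d ^ p = 1) :
    ∀ v : Abelianization ↥D, v ^ p = 1 := by
  intro v
  have hs : Function.Surjective (Abelianization.of : ↥D →* Abelianization ↥D) :=
    QuotientGroup.mk_surjective
  obtain ⟨d, rfl⟩ := hs v
  have h3 : d ^ p = 1 := Subtype.ext (by rw [Subgroup.coe_pow]; exact hexp _ d.2)
  rw [← map_pow, h3, map_one]

/-- Order of the automorphism group of an elementary abelian group of order at most `p ^ 2`. -/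
theorem card_mulAut_dvd {p : ℕ} [Fact p.Prime] {V : Type*} [CommGroup V] [Finite V]
    (hexp : ∀ v : V, v ^ p = 1) (hcard : Nat.card V ≤ p ^ 2) :
    Nat.card (MulAut V) ∣ (p ^ 2 - 1) * (p ^ 2 - p) := by
  have hpp : p.Prime := Fact.out
  have hVp : IsPGroup p V := fun v => ⟨1, by rw [pow_one]; exact hexp v⟩
  obtain ⟨k, hk⟩ := IsPGroup.iff_card.mp hVp
  have hk2 : k ≤ 2 := by
    rw [hk] at hcard
    exact (Nat.pow_le_pow_iff_right hpp.one_lt).mp hcard
  by_cases hk' : k = 2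
  · obtain ⟨Φ, hΦ⟩ := exists_embed hexp (by rw [hk, hk'])
    have h1 := Subgroup.card_dvd_of_injective Φ hΦ
    have h2 : Nat.card (GL (Fin 2) (ZMod p)) = (p ^ 2 - 1) * (p ^ 2 - p) := by
      rw [Matrix.card_GL_field, Fin.prod_univ_two, ZMod.card]
      simp
    rwa [h2] at h1
  · have hk1 : k = 0 ∨ k = 1 := by omega
    rcases hk1 with rfl | rfl
    · haveI : Subsingleton V := by
        rw [← Finite.card_le_one_iff_subsingleton, hk, pow_zero]
      haveI : IsCyclic V := inferInstance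
      rw [IsCyclic.card_mulAut V, hk, pow_zero, Nat.totient_one]
      exact one_dvd _
    · haveI : IsCyclic V := isCyclic_of_prime_card (p := p) (by rw [hk, pow_one])
      rw [IsCyclic.card_mulAut V, hk, pow_one, Nat.totient_prime hpp]
      have h3 : p ^ 2 - p = p * (p - 1) := by
        rw [pow_two, Nat.mul_sub_one]
      rw [h3]
      exact Dvd.dvd.mul_left (Dvd.intro_left p rfl) _

/-- Odd solvable `A` acting on a class-two exponent-`p` group `D` of rank two (no faithfulness). -/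
theorem rank_two_action {G : Type u} [Group G] [Finite G] (p : ℕ) [Fact p.Prime] (hp : p ≠ 2)
    (D A : Subgroup G) (hexp : ∀ d ∈ D, d ^ p = 1)
    (hcl : ∀ x ∈ D, ∀ y ∈ D, ∀ z ∈ D, ⁅x, y⁆ * z = z * ⁅x, y⁆)
    (hrk : ∀ E : Subgroup G, E ≤ D → (∀ x ∈ E, ∀ y ∈ E, x * y = y * x) → Nat.card E ≤ p ^ 2)
    (hAD : A ≤ Subgroup.normalizer (D : Set G)) (hAs : Group.IsSolvable A)
    (hAodd : Odd (Nat.card A)) :
    (∀ a ∈ ⁅A, A⁆, a ^ (p ^ 2) ∈ Subgroup.centralizer (D : Set G)) ∧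
    (∀ a ∈ A, ∀ q s : ℕ, q.Prime → q ≠ p → a ^ (q ^ s) = 1 →
      a ∉ Subgroup.centralizer (D : Set G) → q ∣ (p - 1) * (p + 1)) := by
  have hpp : p.Prime := Fact.out
  have hVcard := ab_card_le p D hexp hcl hrk
  have hVexp := ab_exp p D hexp
  have hcore := aut_core hp hVexp hVcard hAodd hAs (rhoAb D A hAD)
  constructor
  · intro g hg
    have hg' := hg
    rw [← Subgroup.map_subtype_commutator A] at hg'
    obtain ⟨a, ha, rfl⟩ := hg'
    have h1 : rhoAb D A hAD (a ^ p) = 1 := by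
      rw [map_pow]
      exact hcore a ha
    have h2 := pow_mem_centralizer_of_trivial p D hexp hcl _ (rhoAb_one D A hAD (a ^ p) h1)
    have h3 : (A.subtype a) ^ (p ^ 2) = (((a ^ p : ↥A) : G)) ^ p := by
      rw [pow_two, pow_mul]
      rfl
    rw [h3]
    exact h2
  · intro a ha q s hq hqp haq hnc
    have hne : rhoAb D A hAD ⟨a, ha⟩ ≠ 1 := by
      intro h1
      apply hnc
      have h2 := pow_mem_centralizer_of_trivial p D hexp hcl _ (rhoAb_one D A hAD ⟨a, ha⟩ h1)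
      have hcop : Nat.Coprime p (q ^ s) :=
        Nat.Coprime.pow_right s ((Nat.coprime_primes hpp hq).mpr (Ne.symm hqp))
      have h3 : a = (a ^ p) ^ (Nat.gcdA p (q ^ s)) := by
        have h4 := Nat.gcd_eq_gcd_ab p (q ^ s)
        rw [hcop] at h4
        have h5 : a ^ (1 : ℤ) = (a ^ p) ^ (Nat.gcdA p (q ^ s)) := by
          have h6 : ((1 : ℕ) : ℤ) = (p : ℤ) * Nat.gcdA p (q ^ s) + ((q ^ s : ℕ) : ℤ) * Nat.gcdB p (q ^ s) :=
            h4
          rw [show (1 : ℤ) = ((1 : ℕ) : ℤ) by norm_num, h6, zpow_add, zpow_mul, zpow_mul,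
            zpow_natCast, zpow_natCast, haq, one_zpow, mul_one]
        rw [zpow_one] at h5
        exact h5
      rw [h3]
      exact Subgroup.zpow_mem _ h2 _
    have hord : orderOf (rhoAb D A hAD ⟨a, ha⟩) ∣ q ^ s := by
      apply orderOf_dvd_of_pow_eq_one
      rw [← map_pow]
      have h1 : (⟨a, ha⟩ : ↥A) ^ (q ^ s) = 1 := Subtype.ext (by rw [Subgroup.coe_pow]; exact haq)
      rw [h1, map_one]
    obtain ⟨i, hi, hi'⟩ := (Nat.dvd_prime_pow hq).mp hord
    have hi0 : i ≠ 0 := by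
      rintro rfl
      rw [pow_zero, orderOf_eq_one_iff] at hi'
      exact hne hi'
    have hq1 : q ∣ Nat.card (MulAut (Abelianization ↥D)) := by
      have h1 : q ∣ orderOf (rhoAb D A hAD ⟨a, ha⟩) := by
        rw [hi']
        exact dvd_pow_self q hi0
      exact h1.trans (orderOf_dvd_natCard _)
    have hq2 := hq1.trans (card_mulAut_dvd hVexp hVcard)
    have h7 : (p ^ 2 - 1) * (p ^ 2 - p) = (p - 1) * (p + 1) * (p * (p - 1)) := by
      have h8 : p ^ 2 - 1 = (p - 1) * (p + 1) := by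
        have h9 : 1 ≤ p := hpp.pos
        zify [h9, Nat.one_le_pow 2 p h9]
        ring
      have h9 : p ^ 2 - p = p * (p - 1) := by
        rw [pow_two, Nat.mul_sub_one]
      rw [h8, h9]
    rw [h7] at hq2
    rcases (Nat.Prime.dvd_mul hq).mp hq2 with h | h
    · exact h
    · rcases (Nat.Prime.dvd_mul hq).mp h with h' | h'
      · exact absurd ((Nat.prime_dvd_prime_iff_eq hq hpp).mp h') hqp
      · exact Dvd.dvd.mul_right h' _

end Cfsg.Agent.Lib.helper15.GL2D
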