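import Mathlib

set_option autoImplicit false
set_option linter.style.haveILetI false

namespace Cfsg.Agent.Lib.helper15.S1456M3

open scoped commutatorElement

theorem conj_pow_aux {G : Type*} [Group G] (b d z : G) (h1 : b * d * b⁻¹ = z * d)
    (h2 : b * z = z * b) (k : ℕ) : b ^ k * d * (b ^ k)⁻¹ = z ^ k * d := by
  induction k with
  | zero => simp
  | succ k ih =>
    have h3 : b * z ^ k * b⁻¹ = z ^ k := by
      have h4 : Commute b (z ^ k) := Commute.pow_right h2 k
      rw [h4.eq, mul_inv_cancel_right]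
    calc b ^ (k + 1) * d * (b ^ (k + 1))⁻¹ = b * (b ^ k * d * (b ^ k)⁻¹) * b⁻¹ := by
          rw [pow_succ']
          group
      _ = (b * z ^ k * b⁻¹) * (b * d * b⁻¹) := by
          rw [ih]
          group
      _ = z ^ k * (z * d) := by rw [h3, h1]
      _ = z ^ (k + 1) * d := by rw [pow_succ, mul_assoc]

/-- An element of order prime to `p` centralizing `D₁` and `D / D₁` centralizes the `p`-group
`D`. -/
theorem cent_of_stab {G : Type*} [Group G] [Finite G] (p : ℕ) (g : G)
    (hg : (orderOf g).Coprime p) (D D₁ : Subgroup G) (hD : ∀ d ∈ D, ∃ k : ℕ, d ^ (p ^ k) = 1)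
    (hD₁D : D₁ ≤ D) (hc : g ∈ Subgroup.centralizer (D₁ : Set G))
    (hq : ∀ d ∈ D, g * d * g⁻¹ * d⁻¹ ∈ D₁) : g ∈ Subgroup.centralizer (D : Set G) := by
  rw [Subgroup.mem_centralizer_iff]
  intro d hd
  obtain ⟨z, hz⟩ : ∃ z : G, z = g * d * g⁻¹ * d⁻¹ := ⟨_, rfl⟩
  have hzD₁ : z ∈ D₁ := by
    rw [hz]
    exact hq d hd
  have h1 : g * d * g⁻¹ = z * d := by
    rw [hz]
    group
  have h2 : g * z = z * g := (Subgroup.mem_centralizer_iff.mp hc z hzD₁).symm
  have h3 := conj_pow_aux g d z h1 h2 (orderOf g)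
  rw [pow_orderOf_eq_one, one_mul, inv_one, mul_one] at h3
  have h4 : z ^ orderOf g = 1 := by
    have : z ^ orderOf g * d = 1 * d := by rw [one_mul]; exact h3.symm
    exact mul_right_cancel this
  obtain ⟨j, hj⟩ := hD z (hD₁D hzD₁)
  have h5 : orderOf z ∣ orderOf g := orderOf_dvd_of_pow_eq_one h4
  have h6 : orderOf z ∣ p ^ j := orderOf_dvd_of_pow_eq_one hj
  have h7 : orderOf z = 1 := Nat.eq_one_of_dvd_coprimes (Nat.Coprime.pow_right j hg) h5 h6
  have h8 : z = 1 := orderOf_eq_one_iff.mp h7
  rw [h8, one_mul] at h1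
  calc d * g = g * d * g⁻¹ * g := by rw [h1]
    _ = g * d := by group

/-- In a `p`-group `P`, a nontrivial subgroup `D` is not equal to `⁅D, P⁆`. -/
theorem comm_ne_self {G : Type*} [Group G] [Finite G] (p : ℕ) [Fact p.Prime] (P D : Subgroup G)
    (hP : IsPGroup p P) (hDP : D ≤ P) (hD : D ≠ ⊥) : ⁅D, P⁆ ≠ D := by
  intro h
  have hnil : Group.IsNilpotent ↥P := hP.isNilpotent
  obtain ⟨n, hn⟩ := (Subgroup.isNilpotent_iff_lowerCentralSeries P).mp hnil
  have key : ∀ m : ℕ, D ≤ P.lowerCentralSeries m := by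
    intro m
    induction m with
    | zero => exact hDP
    | succ m ih =>
      rw [Subgroup.lowerCentralSeries_succ]
      calc D = ⁅D, P⁆ := h.symm
        _ ≤ ⁅P.lowerCentralSeries m, P⁆ := Subgroup.commutator_mono ih le_rfl
  apply hD
  rw [eq_bot_iff, ← hn]
  exact key n

/-- Counting: `|D| ≤ |C_D(e)| * |D₁|` when `D₁` contains all `⁅d, e⁆`. -/
theorem card_le_fix_mul {G : Type*} [Group G] [Finite G] (D D₁ : Subgroup G) (e : G)
    (h : ∀ d ∈ D, d * e * d⁻¹ * e⁻¹ ∈ D₁) :
    Nat.card D ≤ Nat.card ↥(D ⊓ Subgroup.centralizer ({e} : Set G)) * Nat.card D₁ := by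
  obtain ⟨C, hC⟩ : ∃ C : Subgroup ↥D,
      C = (D ⊓ Subgroup.centralizer ({e} : Set G)).subgroupOf D := ⟨_, rfl⟩
  subst hC
  have h1 : Nat.card ↥D = Nat.card (↥D ⧸ (D ⊓ Subgroup.centralizer ({e} : Set G)).subgroupOf D) *
      Nat.card ((D ⊓ Subgroup.centralizer ({e} : Set G)).subgroupOf D) :=
    Subgroup.card_eq_card_quotient_mul_card_subgroup _
  have h2 : Nat.card ((D ⊓ Subgroup.centralizer ({e} : Set G)).subgroupOf D) =
      Nat.card ↥(D ⊓ Subgroup.centralizer ({e} : Set G)) :=
    Nat.card_congr (Subgroup.subgroupOfEquivOfLe inf_le_left).toEquiv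
  have h3 : Nat.card (↥D ⧸ (D ⊓ Subgroup.centralizer ({e} : Set G)).subgroupOf D) ≤
      Nat.card D₁ := by
    apply Nat.card_le_card_of_injective
      (fun q : ↥D ⧸ (D ⊓ Subgroup.centralizer ({e} : Set G)).subgroupOf D => (⟨(q.out : G) * e * (q.out : G)⁻¹ * e⁻¹, h _ q.out.2⟩ : ↥D₁))
    intro q q' hqq
    have h4 : (q.out : G) * e * (q.out : G)⁻¹ * e⁻¹ = (q'.out : G) * e * (q'.out : G)⁻¹ * e⁻¹ :=
      congrArg Subtype.val hqq
    have h5 : (q.out : G) * e * (q.out : G)⁻¹ = (q'.out : G) * e * (q'.out : G)⁻¹ :=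
      mul_right_cancel h4
    have h6 : q.out⁻¹ * q'.out ∈ (D ⊓ Subgroup.centralizer ({e} : Set G)).subgroupOf D := by
      rw [Subgroup.mem_subgroupOf, Subgroup.mem_inf]
      refine ⟨(q.out⁻¹ * q'.out).2, ?_⟩
      rw [Subgroup.mem_centralizer_iff]
      intro x hx
      rw [Set.mem_singleton_iff] at hx
      rw [hx]
      push_cast
      calc e * ((q.out : G)⁻¹ * (q'.out : G))
          = (q.out : G)⁻¹ * ((q.out : G) * e * (q.out : G)⁻¹) * (q'.out : G) := by group
        _ = (q.out : G)⁻¹ * ((q'.out : G) * e * (q'.out : G)⁻¹) * (q'.out : G) := by rw [h5]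
        _ = (q.out : G)⁻¹ * (q'.out : G) * e := by group
    have h7 : (QuotientGroup.mk q.out :
        ↥D ⧸ (D ⊓ Subgroup.centralizer ({e} : Set G)).subgroupOf D) = QuotientGroup.mk q'.out :=
      QuotientGroup.eq.mpr h6
    rwa [QuotientGroup.out_eq', QuotientGroup.out_eq'] at h7
  rw [h1, h2, mul_comm]
  exact Nat.mul_le_mul_left _ h3

/-- The derived subgroup centralizes a normal `p`-subgroup of order at most `p`. -/
theorem comm_cent_small {Q : Type*} [Group Q] (p : ℕ) [Fact p.Prime] (N : Subgroup Q) [N.Normal]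
    [Finite N] (hNp : IsPGroup p N) (hN : Nat.card N ≤ p) :
    ∀ g ∈ commutator Q, ∀ n ∈ N, g * n * g⁻¹ = n := by
  have hpp : p.Prime := Fact.out
  obtain ⟨k, hk⟩ := IsPGroup.iff_card.mp hNp
  have hk1 : k ≤ 1 := by
    rw [hk] at hN
    have : p ^ k ≤ p ^ 1 := by rwa [pow_one]
    exact (Nat.pow_le_pow_iff_right hpp.one_lt).mp this
  haveI hcyc : IsCyclic ↥N := by
    rcases Nat.eq_zero_or_pos k with h0 | h0
    · rw [h0, pow_zero] at hk
      haveI : Subsingleton ↥N := (Nat.card_eq_one_iff_unique.mp hk).1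
      exact isCyclic_of_subsingleton
    · have h1 : k = 1 := le_antisymm hk1 h0
      rw [h1, pow_one] at hk
      exact isCyclic_of_prime_card hk
  have hcomm : ∀ a b : MulAut ↥N, a * b = b * a := fun a b =>
    (IsCyclic.mulAutMulEquiv ↥N).injective (by rw [map_mul, map_mul, mul_comm])
  have hker : commutator Q ≤ (MulAut.conjNormal (H := N)).ker := by
    rw [commutator_def, Subgroup.commutator_le]
    intro x _ y _
    have h1 : MulAut.conjNormal (H := N) x * MulAut.conjNormal (H := N) y =
        MulAut.conjNormal (H := N) y * MulAut.conjNormal (H := N) x := hcomm _ _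
    rw [MonoidHom.mem_ker, map_commutatorElement, commutatorElement_def, h1]
    group
  intro g hg n hn
  have h1 : MulAut.conjNormal (H := N) g = 1 := MonoidHom.mem_ker.mp (hker hg)
  have h2 : ((MulAut.conjNormal (H := N) g ⟨n, hn⟩ : ↥N) : Q) = g * n * g⁻¹ := by
    rw [MulAut.conjNormal_apply]
  rw [← h2, h1]
  rfl

/-- Piece (M3). -/
theorem cent_of_small_fix {G : Type*} [Group G] [Finite G] (p : ℕ) [Fact p.Prime]
    (P D : Subgroup G) [P.Normal] [D.Normal] (hP : IsPGroup p P) (hDP : D ≤ P) (e : G)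
    (he : e ∈ P) (hfix : Nat.card ↥(D ⊓ Subgroup.centralizer ({e} : Set G)) ≤ p) :
    ∀ g ∈ commutator G, (orderOf g).Coprime p → g ∈ Subgroup.centralizer (D : Set G) := by
  have hpp : p.Prime := Fact.out
  have key : ∀ n : ℕ, ∀ D : Subgroup G, D.Normal → D ≤ P → Nat.card D ≤ n →
      Nat.card ↥(D ⊓ Subgroup.centralizer ({e} : Set G)) ≤ p →
      ∀ g ∈ commutator G, (orderOf g).Coprime p → g ∈ Subgroup.centralizer (D : Set G) := by
    intro n
    induction n with
    | zero =>
      intro D _ _ hc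
      have := Nat.card_pos (α := ↥D)
      omega
    | succ n ih =>
      intro D hDn hDP hcard hfix g hg hgo
      by_cases hbot : D = ⊥
      · rw [hbot]
        intro y hy
        have : y = 1 := Subgroup.mem_bot.mp hy
        rw [this]
        simp
      · haveI := hDn
        obtain ⟨D₁, hD₁⟩ : ∃ D₁ : Subgroup G, D₁ = ⁅D, P⁆ := ⟨_, rfl⟩
        have hD₁n : D₁.Normal := by
          rw [hD₁]
          infer_instance
        have hD₁D : D₁ ≤ D := by
          rw [hD₁]
          exact Subgroup.commutator_le_left D P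
        have hne : D₁ ≠ D := by
          rw [hD₁]
          exact comm_ne_self p P D hP hDP hbot
        have hlt : Nat.card D₁ < Nat.card D := by
          rcases Nat.lt_or_ge (Nat.card D₁) (Nat.card D) with h | h
          · exact h
          · exact absurd (Subgroup.eq_of_le_of_card_ge hD₁D h) hne
        have hfix₁ : Nat.card ↥(D₁ ⊓ Subgroup.centralizer ({e} : Set G)) ≤ p :=
          le_trans (Subgroup.card_le_of_le (inf_le_inf_right _ hD₁D)) hfix
        have hc₁ := ih D₁ hD₁n (hD₁D.trans hDP) (by omega) hfix₁ g hg hgo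
        have hcomm_mem : ∀ d ∈ D, d * e * d⁻¹ * e⁻¹ ∈ D₁ := by
          intro d hd
          have h1 := Subgroup.commutator_mem_commutator hd he
          rw [commutatorElement_def] at h1
          rw [hD₁]
          exact h1
        have hcount := card_le_fix_mul D D₁ e hcomm_mem
        have hcount' : Nat.card D ≤ p * Nat.card D₁ :=
          le_trans hcount (Nat.mul_le_mul_right _ hfix)
        haveI := hD₁n
        obtain ⟨N, hN⟩ : ∃ N : Subgroup (G ⧸ D₁), N = D.map (QuotientGroup.mk' D₁) := ⟨_, rfl⟩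
        haveI hNn : N.Normal := by
          rw [hN]
          exact Subgroup.Normal.map hDn _ (QuotientGroup.mk'_surjective D₁)
        have hNp : IsPGroup p N := by
          rw [hN]
          exact (hP.to_le hDP).map _
        have hNcard : Nat.card N ≤ p := by
          obtain ⟨φ, hφ⟩ : ∃ φ : ↥D →* G ⧸ D₁, φ = (QuotientGroup.mk' D₁).comp D.subtype :=
            ⟨_, rfl⟩
          have hrange : φ.range = N := by
            rw [hφ, MonoidHom.range_comp, Subgroup.range_subtype, hN]
          have h1 : Nat.card ↥D = Nat.card (↥D ⧸ φ.ker) * Nat.card φ.ker :=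
            Subgroup.card_eq_card_quotient_mul_card_subgroup _
          have h2 : Nat.card (↥D ⧸ φ.ker) = Nat.card N := by
            rw [← hrange]
            exact Nat.card_congr (QuotientGroup.quotientKerEquivRange φ).toEquiv
          have h3 : Nat.card D₁ ≤ Nat.card φ.ker := by
            apply Nat.card_le_card_of_injective
              (fun x : ↥D₁ => (⟨⟨x.1, hD₁D x.2⟩, by
                rw [MonoidHom.mem_ker, hφ]
                exact (QuotientGroup.eq_one_iff _).mpr x.2⟩ : ↥φ.ker))
            intro x y hxy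
            have h4 := congrArg (fun t : ↥φ.ker => ((t : ↥D) : G)) hxy
            exact Subtype.ext h4
          have h5 : Nat.card N * Nat.card D₁ ≤ p * Nat.card D₁ := by
            calc Nat.card N * Nat.card D₁ ≤ Nat.card N * Nat.card φ.ker :=
                  Nat.mul_le_mul_left _ h3
              _ = Nat.card ↥D := by rw [h1, h2]
              _ ≤ p * Nat.card D₁ := hcount'
          exact Nat.le_of_mul_le_mul_right h5 Nat.card_pos
        have hact := comm_cent_small p N hNp hNcard
        have hq : ∀ d ∈ D, g * d * g⁻¹ * d⁻¹ ∈ D₁ := by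
          intro d hd
          have hgQ : (QuotientGroup.mk' D₁ g) ∈ commutator (G ⧸ D₁) := by
            rw [commutator_def] at hg ⊢
            have h1 := Subgroup.mem_map_of_mem (QuotientGroup.mk' D₁) hg
            rw [Subgroup.map_commutator] at h1
            exact Subgroup.commutator_mono le_top le_top h1
          have h2 := hact _ hgQ (QuotientGroup.mk' D₁ d)
            (by rw [hN]; exact Subgroup.mem_map_of_mem _ hd)
          have h3 : (QuotientGroup.mk' D₁) (g * d * g⁻¹ * d⁻¹) = 1 := by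
            rw [map_mul, map_mul, map_mul, map_inv, map_inv, h2, mul_inv_cancel]
          exact (QuotientGroup.eq_one_iff _).mp h3
        refine cent_of_stab p g hgo D D₁ ?_ hD₁D hc₁ hq
        intro d hd
        obtain ⟨k, hk⟩ := hP ⟨d, hDP hd⟩
        refine ⟨k, ?_⟩
        have := congrArg Subtype.val hk
        simpa using this
  exact key (Nat.card D) D inferInstance hDP le_rfl hfix

end Cfsg.Agent.Lib.helper15.S1456M3
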