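import Mathlib
import Cfsg.Agent.Lib.helper15.S1456M3
import Cfsg.Agent.Lib.helper21.S1455V1

set_option autoImplicit false
set_option linter.style.haveILetI false

namespace Cfsg.Agent.Lib.helper15.S1454T3

open scoped commutatorElement

/-- Relative form of the small-fixed-point lemmas: `P`, `D` need not be normal in `G`, the
acting group `A` normalizes both. -/
theorem small_fix_rel {G : Type*} [Group G] [Finite G] (p : ℕ) [Fact p.Prime] (P D A : Subgroup G)
    (hP : IsPGroup p P) (hDP : D ≤ P) (hPD : P ≤ Subgroup.normalizer (D : Set G))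
    (hAP : A ≤ Subgroup.normalizer (P : Set G)) (hAD : A ≤ Subgroup.normalizer (D : Set G))
    (e : G) (he : e ∈ P) (hfix : Nat.card ↥(D ⊓ Subgroup.centralizer ({e} : Set G)) ≤ p) :
    (∀ g ∈ ⁅A, A⁆, (orderOf g).Coprime p → g ∈ Subgroup.centralizer (D : Set G)) ∧
      (∀ g ∈ A, (orderOf g).Coprime p → g ^ (p - 1) ∈ Subgroup.centralizer (D : Set G)) := by
  obtain ⟨Y, hY⟩ : ∃ Y : Subgroup G, Y = P ⊔ A := ⟨_, rfl⟩
  have hPY : P ≤ Y := by
    rw [hY]
    exact le_sup_left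
  have hAY : A ≤ Y := by
    rw [hY]
    exact le_sup_right
  have hYP : Y ≤ Subgroup.normalizer (P : Set G) := by
    rw [hY]
    exact sup_le Subgroup.le_normalizer hAP
  have hYD : Y ≤ Subgroup.normalizer (D : Set G) := by
    rw [hY]
    exact sup_le hPD hAD
  haveI hPn : (P.subgroupOf Y).Normal :=
    (Subgroup.normal_subgroupOf_iff_le_normalizer hPY).mpr hYP
  haveI hDn : (D.subgroupOf Y).Normal :=
    (Subgroup.normal_subgroupOf_iff_le_normalizer (hDP.trans hPY)).mpr hYD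
  have hPp : IsPGroup p ↥(P.subgroupOf Y) := hP.comap_subtype
  have hDP' : D.subgroupOf Y ≤ P.subgroupOf Y := fun x hx => hDP hx
  have heY : (⟨e, hPY he⟩ : ↥Y) ∈ P.subgroupOf Y := he
  have hfix' : Nat.card ↥(D.subgroupOf Y ⊓
      Subgroup.centralizer ({(⟨e, hPY he⟩ : ↥Y)} : Set ↥Y)) ≤ p := by
    refine le_trans ?_ hfix
    have hmem : ∀ x : ↥(D.subgroupOf Y ⊓ Subgroup.centralizer ({(⟨e, hPY he⟩ : ↥Y)} : Set ↥Y)),
        ((x : ↥Y) : G) ∈ D ⊓ Subgroup.centralizer ({e} : Set G) := by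
      intro x
      have hx1 : (x : ↥Y) ∈ D.subgroupOf Y := (Subgroup.mem_inf.mp x.2).1
      have hx2 : (x : ↥Y) ∈ Subgroup.centralizer ({(⟨e, hPY he⟩ : ↥Y)} : Set ↥Y) :=
        (Subgroup.mem_inf.mp x.2).2
      refine Subgroup.mem_inf.mpr ⟨Subgroup.mem_subgroupOf.mp hx1, ?_⟩
      rw [Subgroup.mem_centralizer_iff]
      intro h hh
      rw [Set.mem_singleton_iff] at hh
      rw [hh]
      have h3 := Subgroup.mem_centralizer_iff.mp hx2 ⟨e, hPY he⟩ (Set.mem_singleton _)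
      exact congrArg Subtype.val h3
    apply Nat.card_le_card_of_injective
      (fun x : ↥(D.subgroupOf Y ⊓ Subgroup.centralizer ({(⟨e, hPY he⟩ : ↥Y)} : Set ↥Y)) =>
        (⟨((x : ↥Y) : G), hmem x⟩ : ↥(D ⊓ Subgroup.centralizer ({e} : Set G))))
    intro x y hxy
    have h4 : ((x : ↥Y) : G) = ((y : ↥Y) : G) :=
      congrArg (fun t : ↥(D ⊓ Subgroup.centralizer ({e} : Set G)) => (t : G)) hxy
    exact Subtype.ext (Subtype.ext h4)
  have h1 := Cfsg.Agent.Lib.helper15.S1456M3.cent_of_small_fix p (P.subgroupOf Y)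
    (D.subgroupOf Y) hPp hDP' ⟨e, hPY he⟩ heY hfix'
  have h2 := Cfsg.Agent.Lib.helper21.S1455V1.pow_cent_of_small_fix p (P.subgroupOf Y)
    (D.subgroupOf Y) hPp hDP' ⟨e, hPY he⟩ heY hfix'
  have hback : ∀ y : ↥Y, y ∈ Subgroup.centralizer ((D.subgroupOf Y : Subgroup ↥Y) : Set ↥Y) →
      (y : G) ∈ Subgroup.centralizer (D : Set G) := by
    intro y hy
    rw [Subgroup.mem_centralizer_iff] at hy ⊢
    intro d hd
    have h3 := hy ⟨d, hPY (hDP hd)⟩ (Subgroup.mem_subgroupOf.mpr hd)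
    exact congrArg Subtype.val h3
  constructor
  · intro g hg hcop
    have hg' : g ∈ ⁅Y, Y⁆ := Subgroup.commutator_mono hAY hAY hg
    rw [← Subgroup.map_subtype_commutator Y] at hg'
    obtain ⟨y, hy, rfl⟩ := hg'
    apply hback
    apply h1 y hy
    rw [← Subgroup.orderOf_coe]
    exact hcop
  · intro g hg hcop
    have h3 := h2 ⟨g, hAY hg⟩ (by rw [← Subgroup.orderOf_coe]; exact hcop)
    have h4 := hback _ h3
    simpa using h4

end Cfsg.Agent.Lib.helper15.S1454T3
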