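import Mathlib

namespace Cfsg.Agent.Lib.helper15.S1454X2

open scoped commutatorElement

theorem comm_eq_aux {H : Type*} [Group H] (x d r : H) (h : ⁅x, d⁆ = ⁅x, r⁆) :
    (d⁻¹ * r) * x = x * (d⁻¹ * r) := by
  rw [commutatorElement_def, commutatorElement_def] at h
  have h2 : d⁻¹ * r * x⁻¹ = x⁻¹ * (d⁻¹ * r) := by
    calc d⁻¹ * r * x⁻¹ = d⁻¹ * x⁻¹ * (x * r * x⁻¹ * r⁻¹) * r := by group
      _ = d⁻¹ * x⁻¹ * (x * d * x⁻¹ * d⁻¹) * r := by rw [h]
      _ = x⁻¹ * (d⁻¹ * r) := by group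
  calc d⁻¹ * r * x = x * (x⁻¹ * (d⁻¹ * r)) * x := by group
    _ = x * (d⁻¹ * r * x⁻¹) * x := by rw [h2]
    _ = x * (d⁻¹ * r) := by group

theorem cent_of_comm {H : Type*} [Group H] [Finite H] (p : ℕ) [Fact p.Prime]
    (D : Subgroup H) (hD3 : Nat.card D = p ^ 3) (x y : H) (hx : x ∈ D) (hy : y ∈ D)
    (hxy : x * y ≠ y * x) (s : H) (hsx : s * x = x * s) (hsy : s * y = y * s) :
    s ∈ Subgroup.centralizer (D : Set H) := by
  have hp : p.Prime := Fact.out
  set A : Subgroup H := D ⊓ Subgroup.centralizer ({s} : Set H) with hA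
  have hxA : x ∈ A := by
    refine Subgroup.mem_inf.2 ⟨hx, ?_⟩
    rw [Subgroup.mem_centralizer_iff]; intro g hg
    rw [Set.mem_singleton_iff] at hg; subst hg; exact hsx
  have hyA : y ∈ A := by
    refine Subgroup.mem_inf.2 ⟨hy, ?_⟩
    rw [Subgroup.mem_centralizer_iff]; intro g hg
    rw [Set.mem_singleton_iff] at hg; subst hg; exact hsy
  have hAD : A ≤ D := inf_le_left
  have hdvd : Nat.card A ∣ p ^ 3 := hD3 ▸ Subgroup.card_dvd_of_le hAD
  obtain ⟨k, hk, hkc⟩ := (Nat.dvd_prime_pow hp).1 hdvd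
  have hcommA : (∀ a b : A, a * b = b * a) → False := by
    intro h
    have := h ⟨x, hxA⟩ ⟨y, hyA⟩
    exact hxy (congrArg Subtype.val this)
  have hk3 : k = 3 := by
    by_contra hne
    have : k = 0 ∨ k = 1 ∨ k = 2 := by omega
    rcases this with rfl | rfl | rfl
    · rw [pow_zero] at hkc
      have : Subsingleton A := (Nat.card_eq_one_iff_unique.1 hkc).1
      exact hcommA (fun a b => by rw [Subsingleton.elim a b])
    · rw [pow_one] at hkc
      have := isCyclic_of_prime_card hkc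
      exact hcommA (fun a b => IsCyclic.commGroup.mul_comm a b)
    · exact hcommA (IsPGroup.commutative_of_card_eq_prime_sq hkc)
  subst hk3
  have hAeq : A = D := Subgroup.eq_of_le_of_card_ge hAD (by rw [hkc, hD3])
  rw [Subgroup.mem_centralizer_iff]
  intro d hd
  have hdA : d ∈ A := hAeq ▸ hd
  have := (Subgroup.mem_inf.1 hdA).2
  rw [Subgroup.mem_centralizer_iff] at this
  exact (this s (Set.mem_singleton s)).symm

theorem prod_centralizer {H : Type*} [Group H] [Finite H] (p : ℕ) [Fact p.Prime]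
    (R D : Subgroup H) (hR : IsPGroup p R) (hDR : D ≤ R) (hD3 : Nat.card D = p ^ 3)
    (hZ : Nat.card ↥(D ⊓ Subgroup.centralizer (D : Set H)) = p)
    (hDn : R ≤ Subgroup.normalizer (D : Set H))
    (hcomm : ∀ d ∈ D, ∀ r ∈ R, ⁅d, r⁆ ∈ Subgroup.centralizer (D : Set H)) :
    ∀ r ∈ R, ∃ d ∈ D, ∃ c ∈ R ⊓ Subgroup.centralizer (D : Set H), r = d * c := by
  have hp : p.Prime := Fact.out
  set Z : Subgroup H := D ⊓ Subgroup.centralizer (D : Set H) with hZdef
  have hZD : Z ≤ D := inf_le_left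
  obtain ⟨x, hx, y, hy, hxy⟩ : ∃ x ∈ D, ∃ y ∈ D, x * y ≠ y * x := by
    by_contra hcon
    push Not at hcon
    have hDZ : D ≤ Z := by
      intro d hd
      refine Subgroup.mem_inf.2 ⟨hd, ?_⟩
      rw [Subgroup.mem_centralizer_iff]
      intro h hh
      exact hcon h hh d hd
    have hle : Nat.card D ≤ Nat.card Z := Subgroup.card_le_of_le hDZ
    rw [hD3, hZ] at hle
    have h2 : 2 ≤ p := hp.two_le
    have h3 : p * 2 ≤ p * p := Nat.mul_le_mul_left p h2
    have h4 : p * p * 2 ≤ p * p * p := Nat.mul_le_mul_left (p * p) h2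
    have h5 : p ^ 3 = p * p * p := by ring
    omega
  have hcZ : ∀ d ∈ D, ∀ r ∈ R, ⁅d, r⁆ ∈ Z := by
    intro d hd r hr
    refine Subgroup.mem_inf.2 ⟨?_, hcomm d hd r hr⟩
    have hn := hDn hr
    rw [Subgroup.mem_normalizer_iff] at hn
    have h1 : r * d⁻¹ * r⁻¹ ∈ D := (hn d⁻¹).1 (D.inv_mem hd)
    have : ⁅d, r⁆ = d * (r * d⁻¹ * r⁻¹) := by rw [commutatorElement_def]; group
    rw [this]; exact D.mul_mem hd h1
  have key := cent_of_comm p D hD3 x y hx hy hxy
  have hQcard : Nat.card (↥D ⧸ Z.subgroupOf D) = p ^ 2 := by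
    have h1 := Subgroup.card_eq_card_quotient_mul_card_subgroup (Z.subgroupOf D)
    have h2 : Nat.card (Z.subgroupOf D) = p := by
      rw [← hZ]; exact Nat.card_congr (Subgroup.subgroupOfEquivOfLe hZD).toEquiv
    rw [hD3, h2] at h1
    have hpos : 0 < p := hp.pos
    have : p ^ 2 * p = Nat.card (↥D ⧸ Z.subgroupOf D) * p := by rw [← h1]; ring
    exact (Nat.eq_of_mul_eq_mul_right hpos this).symm
  let g : (↥D ⧸ Z.subgroupOf D) → H × H := fun q =>
    (⁅x, ((Quotient.out q : ↥D) : H)⁆, ⁅y, ((Quotient.out q : ↥D) : H)⁆)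
  have hginj : Function.Injective g := by
    intro q q' h
    have h1 : ⁅x, ((Quotient.out q : ↥D) : H)⁆ = ⁅x, ((Quotient.out q' : ↥D) : H)⁆ :=
      congrArg Prod.fst h
    have h2 : ⁅y, ((Quotient.out q : ↥D) : H)⁆ = ⁅y, ((Quotient.out q' : ↥D) : H)⁆ :=
      congrArg Prod.snd h
    have hc := key _ (comm_eq_aux x _ _ h1) (comm_eq_aux y _ _ h2)
    have hmem : (Quotient.out q)⁻¹ * Quotient.out q' ∈ Z.subgroupOf D := by
      rw [Subgroup.mem_subgroupOf]
      refine ⟨?_, ?_⟩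
      · exact ((Quotient.out q)⁻¹ * Quotient.out q').2
      · simpa using hc
    have := QuotientGroup.eq.2 hmem
    rw [QuotientGroup.out_eq', QuotientGroup.out_eq'] at this
    exact this
  have hrange : Set.range g = (Z : Set H) ×ˢ (Z : Set H) := by
    refine Set.eq_of_subset_of_ncard_le ?_ ?_ (Set.toFinite _)
    · rintro _ ⟨q, rfl⟩
      exact ⟨hcZ x hx _ (hDR (Quotient.out q).2), hcZ y hy _ (hDR (Quotient.out q).2)⟩
    · rw [Set.ncard_prod, ← Set.image_univ, Set.ncard_image_of_injective _ hginj,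
        Set.ncard_univ, hQcard]
      have : (Z : Set H).ncard = p := by rw [← hZ]; exact (Nat.card_coe_set_eq _).symm
      rw [this]; exact le_of_eq (by ring)
  intro r hr
  have hmem : ((⁅x, r⁆, ⁅y, r⁆) : H × H) ∈ (Z : Set H) ×ˢ (Z : Set H) :=
    ⟨hcZ x hx r hr, hcZ y hy r hr⟩
  rw [← hrange] at hmem
  obtain ⟨q, hq⟩ := hmem
  have hdD : ((Quotient.out q : ↥D) : H) ∈ D := (Quotient.out q).2
  have h1 : ⁅x, ((Quotient.out q : ↥D) : H)⁆ = ⁅x, r⁆ := congrArg Prod.fst hq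
  have h2 : ⁅y, ((Quotient.out q : ↥D) : H)⁆ = ⁅y, r⁆ := congrArg Prod.snd hq
  have hc := key _ (comm_eq_aux x _ r h1) (comm_eq_aux y _ r h2)
  exact ⟨_, hdD, ((Quotient.out q : ↥D) : H)⁻¹ * r,
    ⟨R.mul_mem (R.inv_mem (hDR hdD)) hr, hc⟩, by group⟩

end Cfsg.Agent.Lib.helper15.S1454X2
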