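import Mathlib
import Cfsg.Agent.Lib.helper15.S1456M3

set_option autoImplicit false
set_option linter.style.haveILetI false

namespace Cfsg.Agent.Lib.helper15.S1455M3

open scoped commutatorElement
open Cfsg.Agent.Lib.helper15.S1456M3

/-- An element of order prime to `p - 1` centralizes a normal `p`-subgroup of order at most
`p`. -/
theorem order_cent_small {Q : Type*} [Group Q] (p : ℕ) [Fact p.Prime] (N : Subgroup Q) [N.Normal]
    [Finite N] (hNp : IsPGroup p N) (hN : Nat.card N ≤ p) (g : Q)
    (hg : (orderOf g).Coprime (p - 1)) : ∀ n ∈ N, g * n * g⁻¹ = n := by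
  have hpp : p.Prime := Fact.out
  obtain ⟨k, hk⟩ := IsPGroup.iff_card.mp hNp
  have hk1 : k ≤ 1 := by
    rw [hk] at hN
    have : p ^ k ≤ p ^ 1 := by rwa [pow_one]
    exact (Nat.pow_le_pow_iff_right hpp.one_lt).mp this
  rcases Nat.eq_zero_or_pos k with h0 | h0
  · rw [h0, pow_zero] at hk
    haveI : Subsingleton ↥N := (Nat.card_eq_one_iff_unique.mp hk).1
    intro n hn
    have h1 : (⟨n, hn⟩ : ↥N) = 1 := Subsingleton.elim _ _
    have h2 : n = 1 := congrArg Subtype.val h1
    rw [h2]
    group
  · have h1 : k = 1 := le_antisymm hk1 h0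
    rw [h1, pow_one] at hk
    haveI hcyc : IsCyclic ↥N := isCyclic_of_prime_card hk
    have hcard : Nat.card (MulAut ↥N) = p - 1 := by
      rw [IsCyclic.card_mulAut, hk, Nat.totient_prime hpp]
    have hp1 : p - 1 ≠ 0 := by
      have := hpp.two_le
      omega
    haveI : Finite (MulAut ↥N) := Nat.finite_of_card_ne_zero (by rw [hcard]; exact hp1)
    have h2 : orderOf (MulAut.conjNormal (H := N) g) ∣ orderOf g := orderOf_map_dvd _ g
    have h3 : orderOf (MulAut.conjNormal (H := N) g) ∣ p - 1 := by
      rw [← hcard]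
      exact orderOf_dvd_natCard _
    have h4 : orderOf (MulAut.conjNormal (H := N) g) = 1 := Nat.eq_one_of_dvd_coprimes hg h2 h3
    have h5 : MulAut.conjNormal (H := N) g = 1 := orderOf_eq_one_iff.mp h4
    intro n hn
    have h6 : ((MulAut.conjNormal (H := N) g ⟨n, hn⟩ : ↥N) : Q) = g * n * g⁻¹ := by
      rw [MulAut.conjNormal_apply]
    rw [← h6, h5]
    rfl

/-- Variant of piece (M3): elements of order prime to `p` and to `p - 1`. -/
theorem cent_of_small_fix_order {G : Type*} [Group G] [Finite G] (p : ℕ) [Fact p.Prime]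
    (P D : Subgroup G) [P.Normal] [D.Normal] (hP : IsPGroup p P) (hDP : D ≤ P) (e : G)
    (he : e ∈ P) (hfix : Nat.card ↥(D ⊓ Subgroup.centralizer ({e} : Set G)) ≤ p) :
    ∀ g : G, (orderOf g).Coprime p → (orderOf g).Coprime (p - 1) →
      g ∈ Subgroup.centralizer (D : Set G) := by
  have hpp : p.Prime := Fact.out
  have key : ∀ n : ℕ, ∀ D : Subgroup G, D.Normal → D ≤ P → Nat.card D ≤ n →
      Nat.card ↥(D ⊓ Subgroup.centralizer ({e} : Set G)) ≤ p →
      ∀ g : G, (orderOf g).Coprime p → (orderOf g).Coprime (p - 1) →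
        g ∈ Subgroup.centralizer (D : Set G) := by
    intro n
    induction n with
    | zero =>
      intro D _ _ hc
      have := Nat.card_pos (α := ↥D)
      omega
    | succ n ih =>
      intro D hDn hDP hcard hfix g hgo hgo'
      by_cases hbot : D = ⊥
      · rw [hbot]
        intro y hy
        have : y = 1 := Subgroup.mem_bot.mp hy
        rw [this]
        simp
      · haveI := hDn
        obtain ⟨D₁, hD₁⟩ : ∃ D₁ : Subgroup G, D₁ = ⁅D, P⁆ := ⟨_, rfl⟩
        have hD₁n : D₁.Normal := by
          rw [hD₁]
          infer_instance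
        have hD₁D : D₁ ≤ D := by
          rw [hD₁]
          exact Subgroup.commutator_le_left D P
        have hne : D₁ ≠ D := by
          rw [hD₁]
          exact comm_ne_self p P D hP hDP hbot
        have hlt : Nat.card D₁ < Nat.card D := by
          rcases Nat.lt_or_ge (Nat.card D₁) (Nat.card D) with h | h
          · exact h
          · exact absurd (Subgroup.eq_of_le_of_card_ge hD₁D h) hne
        have hfix₁ : Nat.card ↥(D₁ ⊓ Subgroup.centralizer ({e} : Set G)) ≤ p :=
          le_trans (Subgroup.card_le_of_le (inf_le_inf_right _ hD₁D)) hfix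
        have hc₁ := ih D₁ hD₁n (hD₁D.trans hDP) (by omega) hfix₁ g hgo hgo'
        have hcomm_mem : ∀ d ∈ D, d * e * d⁻¹ * e⁻¹ ∈ D₁ := by
          intro d hd
          have h1 := Subgroup.commutator_mem_commutator hd he
          rw [commutatorElement_def] at h1
          rw [hD₁]
          exact h1
        have hcount := card_le_fix_mul D D₁ e hcomm_mem
        have hcount' : Nat.card D ≤ p * Nat.card D₁ :=
          le_trans hcount (Nat.mul_le_mul_right _ hfix)
        haveI := hD₁n
        obtain ⟨N, hN⟩ : ∃ N : Subgroup (G ⧸ D₁), N = D.map (QuotientGroup.mk' D₁) := ⟨_, rfl⟩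
        haveI hNn : N.Normal := by
          rw [hN]
          exact Subgroup.Normal.map hDn _ (QuotientGroup.mk'_surjective D₁)
        have hNp : IsPGroup p N := by
          rw [hN]
          exact (hP.to_le hDP).map _
        have hNcard : Nat.card N ≤ p := by
          obtain ⟨φ, hφ⟩ : ∃ φ : ↥D →* G ⧸ D₁, φ = (QuotientGroup.mk' D₁).comp D.subtype :=
            ⟨_, rfl⟩
          have hrange : φ.range = N := by
            rw [hφ, MonoidHom.range_comp, Subgroup.range_subtype, hN]
          have h1 : Nat.card ↥D = Nat.card (↥D ⧸ φ.ker) * Nat.card φ.ker :=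
            Subgroup.card_eq_card_quotient_mul_card_subgroup _
          have h2 : Nat.card (↥D ⧸ φ.ker) = Nat.card N := by
            rw [← hrange]
            exact Nat.card_congr (QuotientGroup.quotientKerEquivRange φ).toEquiv
          have h3 : Nat.card D₁ ≤ Nat.card φ.ker := by
            apply Nat.card_le_card_of_injective
              (fun x : ↥D₁ => (⟨⟨x.1, hD₁D x.2⟩, by
                rw [MonoidHom.mem_ker, hφ]
                exact (QuotientGroup.eq_one_iff _).mpr x.2⟩ : ↥φ.ker))
            intro x y hxy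
            have h4 := congrArg (fun t : ↥φ.ker => ((t : ↥D) : G)) hxy
            exact Subtype.ext h4
          have h5 : Nat.card N * Nat.card D₁ ≤ p * Nat.card D₁ := by
            calc Nat.card N * Nat.card D₁ ≤ Nat.card N * Nat.card φ.ker :=
                  Nat.mul_le_mul_left _ h3
              _ = Nat.card ↥D := by rw [h1, h2]
              _ ≤ p * Nat.card D₁ := hcount'
          exact Nat.le_of_mul_le_mul_right h5 Nat.card_pos
        have hgQ : (orderOf (QuotientGroup.mk' D₁ g)).Coprime (p - 1) :=
          Nat.Coprime.coprime_dvd_left (orderOf_map_dvd _ g) hgo'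
        have hact := order_cent_small p N hNp hNcard (QuotientGroup.mk' D₁ g) hgQ
        have hq : ∀ d ∈ D, g * d * g⁻¹ * d⁻¹ ∈ D₁ := by
          intro d hd
          have h2 := hact (QuotientGroup.mk' D₁ d)
            (by rw [hN]; exact Subgroup.mem_map_of_mem _ hd)
          have h3 : (QuotientGroup.mk' D₁) (g * d * g⁻¹ * d⁻¹) = 1 := by
            rw [map_mul, map_mul, map_mul, map_inv, map_inv, h2, mul_inv_cancel]
          exact (QuotientGroup.eq_one_iff _).mp h3
        refine cent_of_stab p g hgo D D₁ ?_ hD₁D hc₁ hq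
        intro d hd
        obtain ⟨k, hk⟩ := hP ⟨d, hDP hd⟩
        refine ⟨k, ?_⟩
        have := congrArg Subtype.val hk
        simpa using this
  exact key (Nat.card D) D inferInstance hDP le_rfl hfix

/-- Variant of piece (M3) with the hypothesis `(orderOf g).Coprime (p * (p - 1))`. -/
theorem cent_of_small_fix' {G : Type*} [Group G] [Finite G] (p : ℕ) [Fact p.Prime]
    (P D : Subgroup G) [P.Normal] [D.Normal] (hP : IsPGroup p P) (hDP : D ≤ P) (e : G)
    (he : e ∈ P) (hfix : Nat.card ↥(D ⊓ Subgroup.centralizer ({e} : Set G)) ≤ p) :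
    ∀ g : G, (orderOf g).Coprime (p * (p - 1)) → g ∈ Subgroup.centralizer (D : Set G) := by
  intro g hg
  exact cent_of_small_fix_order p P D hP hDP e he hfix g
    (Nat.Coprime.coprime_dvd_right (Dvd.intro _ rfl) hg)
    (Nat.Coprime.coprime_dvd_right (Dvd.intro_left _ rfl) hg)

end Cfsg.Agent.Lib.helper15.S1455M3
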