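import Mathlib

set_option autoImplicit false

namespace Cfsg.Agent.Lib.helper15.S1456M2

open scoped commutatorElement

/-- A set of pairwise commuting elements generates a subgroup of pairwise commuting elements. -/
theorem closure_comm {G : Type*} [Group G] (S : Set G) (hS : ∀ a ∈ S, ∀ b ∈ S, a * b = b * a) :
    ∀ a ∈ Subgroup.closure S, ∀ b ∈ Subgroup.closure S, a * b = b * a := by
  have h1 : Subgroup.closure S ≤ Subgroup.centralizer S := by
    rw [Subgroup.closure_le]
    intro a ha
    exact Subgroup.mem_centralizer_iff.mpr (fun s hs => hS s hs a ha)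
  intro a ha
  have h2 : Subgroup.closure S ≤ Subgroup.centralizer ({a} : Set G) := by
    rw [Subgroup.closure_le]
    intro s hs
    refine Subgroup.mem_centralizer_iff.mpr ?_
    intro x hx
    rw [Set.mem_singleton_iff] at hx
    rw [hx]
    exact (Subgroup.mem_centralizer_iff.mp (h1 ha) s hs).symm
  intro b hb
  have h3 := Subgroup.mem_centralizer_iff.mp (h2 hb) a (Set.mem_singleton a)
  exact h3

/-- A proper subgroup of a group of exponent `p` and order at most `p ^ 2` has order at most `p`. -/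
theorem card_le_of_lt {G : Type*} [Group G] [Finite G] (p : ℕ) [Fact p.Prime] (H X : Subgroup G)
    (hHX : H ≤ X) (hexp : ∀ x ∈ X, x ^ p = 1) (hX : Nat.card X ≤ p ^ 2) (e : G) (heX : e ∈ X)
    (heH : e ∉ H) : Nat.card H ≤ p := by
  have hpp : p.Prime := Fact.out
  have hXp : IsPGroup p X := by
    intro x
    refine ⟨1, ?_⟩
    rw [pow_one]
    exact Subtype.ext (hexp x.1 x.2)
  obtain ⟨k, hk⟩ := IsPGroup.iff_card.mp hXp
  have hdvd : Nat.card H ∣ Nat.card X := Subgroup.card_dvd_of_le hHX
  rw [hk] at hdvd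
  obtain ⟨j, hjk, hj⟩ := (Nat.dvd_prime_pow hpp).mp hdvd
  have hne : Nat.card H ≠ Nat.card X := by
    intro h
    have h1 : H = X := Subgroup.eq_of_le_of_card_ge hHX h.ge
    rw [h1] at heH
    exact heH heX
  have hjk' : j < k := by
    rcases Nat.lt_or_ge j k with h | h
    · exact h
    · exfalso
      apply hne
      rw [hj, hk, le_antisymm hjk h]
  have hk2 : k ≤ 2 := by
    rw [hk] at hX
    exact (Nat.pow_le_pow_iff_right hpp.one_lt).mp hX
  have hj1 : j ≤ 1 := by omega
  rw [hj]
  calc p ^ j ≤ p ^ 1 := Nat.pow_le_pow_right hpp.pos hj1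
    _ = p := pow_one p

/-- An abelian subgroup of `D` commuting with `e` and not containing `e` has order at most `p`. -/
theorem card_le_of_adjoin {G : Type*} [Group G] [Finite G] (p : ℕ) [Fact p.Prime] (D : Subgroup G)
    (hexp : ∀ d ∈ D, d ^ p = 1) (e : G) (he : e ∈ D)
    (hr : ∀ B : Subgroup G, B ≤ D → (∀ b ∈ B, b * e = e * b) →
      (∀ a ∈ B, ∀ b ∈ B, a * b = b * a) → Nat.card B ≤ p ^ 2)
    (H : Subgroup G) (hHD : H ≤ D) (hHe : ∀ b ∈ H, b * e = e * b)
    (hHab : ∀ a ∈ H, ∀ b ∈ H, a * b = b * a) (heH : e ∉ H) : Nat.card H ≤ p := by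
  obtain ⟨S, hS⟩ : ∃ S : Set G, S = (H : Set G) ∪ {e} := ⟨_, rfl⟩
  have hScomm : ∀ a ∈ S, ∀ b ∈ S, a * b = b * a := by
    intro a ha b hb
    rw [hS] at ha hb
    rcases ha with ha | ha <;> rcases hb with hb | hb
    · exact hHab a ha b hb
    · rw [Set.mem_singleton_iff] at hb
      rw [hb]
      exact hHe a ha
    · rw [Set.mem_singleton_iff] at ha
      rw [ha]
      exact (hHe b hb).symm
    · rw [Set.mem_singleton_iff] at ha hb
      rw [ha, hb]
  have hXab := closure_comm S hScomm
  have hSD : S ⊆ (D : Set G) := by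
    rw [hS]
    intro a ha
    rcases ha with ha | ha
    · exact hHD ha
    · rw [Set.mem_singleton_iff] at ha
      rw [ha]
      exact he
  have hXD : Subgroup.closure S ≤ D := (Subgroup.closure_le D).mpr hSD
  have heX : e ∈ Subgroup.closure S := Subgroup.subset_closure (by rw [hS]; exact Or.inr rfl)
  have hHX : H ≤ Subgroup.closure S := by
    intro a ha
    exact Subgroup.subset_closure (by rw [hS]; exact Or.inl ha)
  have hXcard : Nat.card (Subgroup.closure S) ≤ p ^ 2 :=
    hr _ hXD (fun b hb => hXab b hb e heX) hXab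
  exact card_le_of_lt p H (Subgroup.closure S) hHX (fun x hx => hexp x (hXD hx)) hXcard e heX heH

/-- Piece (M2): the rank condition for abelian subgroups commuting with `e` gives the rank
condition for all abelian subgroups of a class-two group `D` of exponent `p`. -/
theorem rank_of_mem {G : Type*} [Group G] [Finite G] (p : ℕ) [Fact p.Prime] (D : Subgroup G)
    (hexp : ∀ d ∈ D, d ^ p = 1)
    (hcl : ∀ x ∈ D, ∀ y ∈ D, ∀ z ∈ D, ⁅x, y⁆ * z = z * ⁅x, y⁆) (e : G) (he : e ∈ D)
    (hr : ∀ B : Subgroup G, B ≤ D → (∀ b ∈ B, b * e = e * b) →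
      (∀ a ∈ B, ∀ b ∈ B, a * b = b * a) → Nat.card B ≤ p ^ 2) :
    ∀ B : Subgroup G, B ≤ D → (∀ a ∈ B, ∀ b ∈ B, a * b = b * a) → Nat.card B ≤ p ^ 2 := by
  have hpp : p.Prime := Fact.out
  intro B hBD hBab
  by_cases hBe : ∀ b ∈ B, b * e = e * b
  · exact hr B hBD hBe hBab
  · push Not at hBe
    obtain ⟨b₀, hb₀B, hb₀⟩ := hBe
    have heB : e ∉ B := fun h => hb₀ (hBab b₀ hb₀B e h)
    -- the commutator map
    have hcomm_mem : ∀ d ∈ D, ⁅d, e⁆ ∈ D := by
      intro d hd
      rw [commutatorElement_def]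
      exact D.mul_mem (D.mul_mem (D.mul_mem hd he) (D.inv_mem hd)) (D.inv_mem he)
    have hmul : ∀ x ∈ D, ∀ y ∈ D, ⁅x * y, e⁆ = ⁅x, e⁆ * ⁅y, e⁆ := by
      intro x hx y hy
      have h1 := hcl y hy e he x hx
      have h2 : ⁅x * y, e⁆ = x * ⁅y, e⁆ * x⁻¹ * ⁅x, e⁆ := by
        simp only [commutatorElement_def]
        group
      rw [h2, ← h1]
      have h3 := hcl x hx e he _ (hcomm_mem y hy)
      rw [mul_inv_cancel_right, h3]
    obtain ⟨ψ, hψ⟩ : ∃ ψ : ↥B →* ↥D, ∀ b : ↥B, ((ψ b : ↥D) : G) = ⁅(b : G), e⁆ :=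
      ⟨{ toFun := fun b => ⟨⁅(b : G), e⁆, hcomm_mem b.1 (hBD b.2)⟩
         map_one' := by
           apply Subtype.ext
           simp
         map_mul' := by
           intro x y
           apply Subtype.ext
           exact hmul x.1 (hBD x.2) y.1 (hBD y.2) }, fun b => rfl⟩
    -- the kernel
    have hker : Nat.card ψ.ker ≤ p := by
      obtain ⟨B₀, hB₀⟩ : ∃ B₀ : Subgroup G, B₀ = ψ.ker.map B.subtype := ⟨_, rfl⟩
      have hB₀B : B₀ ≤ B := by
        rw [hB₀]
        rintro _ ⟨x, -, rfl⟩
        exact x.2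
      have hB₀e : ∀ b ∈ B₀, b * e = e * b := by
        intro b hb
        rw [hB₀] at hb
        obtain ⟨x, hx, rfl⟩ := hb
        have h1 : ((ψ x : ↥D) : G) = 1 := by
          rw [MonoidHom.mem_ker.mp hx]
          rfl
        rw [hψ, commutatorElement_eq_one_iff_mul_comm] at h1
        exact h1
      have h1 : Nat.card B₀ ≤ p := by
        apply card_le_of_adjoin p D hexp e he hr B₀ (hB₀B.trans hBD) hB₀e
        · intro a ha b hb
          exact hBab a (hB₀B ha) b (hB₀B hb)
        · intro h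
          exact heB (hB₀B h)
      rw [hB₀, Subgroup.card_map_of_injective B.subtype_injective] at h1
      exact h1
    -- the image
    have hrange : Nat.card ψ.range ≤ p := by
      obtain ⟨K, hK⟩ : ∃ K : Subgroup G, K = ψ.range.map D.subtype := ⟨_, rfl⟩
      have hKD : K ≤ D := by
        rw [hK]
        rintro _ ⟨x, -, rfl⟩
        exact x.2
      have hKform : ∀ k ∈ K, ∃ b ∈ B, k = ⁅b, e⁆ := by
        intro k hk
        rw [hK] at hk
        obtain ⟨x, ⟨b, rfl⟩, rfl⟩ := hk
        exact ⟨b.1, b.2, hψ b⟩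
      have hKcent : ∀ k ∈ K, ∀ z ∈ D, k * z = z * k := by
        intro k hk z hz
        obtain ⟨b, hb, rfl⟩ := hKform k hk
        exact hcl b (hBD hb) e he z hz
      have h1 : Nat.card K ≤ p := by
        apply card_le_of_adjoin p D hexp e he hr K hKD
        · intro k hk
          exact hKcent k hk e he
        · intro a ha b hb
          exact hKcent a ha b (hKD hb)
        · intro h
          exact hb₀ ((hKcent e h b₀ (hBD hb₀B)).symm)
      rw [hK, Subgroup.card_map_of_injective D.subtype_injective] at h1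
      exact h1
    have hcard : Nat.card B = Nat.card (↥B ⧸ ψ.ker) * Nat.card ψ.ker :=
      Subgroup.card_eq_card_quotient_mul_card_subgroup _
    have hq : Nat.card (↥B ⧸ ψ.ker) = Nat.card ψ.range :=
      Nat.card_congr (QuotientGroup.quotientKerEquivRange ψ).toEquiv
    rw [hcard, hq, pow_two]
    exact Nat.mul_le_mul hrange hker

end Cfsg.Agent.Lib.helper15.S1456M2
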